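import Cfsg.Agent.FFMin.Normalise

/-!
If stabilisers of points fixed by all offenders of a Sylow subgroup `T` lie in `M`, then `T` holds a
single offender `A`, the normal closure of `A` is `SL₂(q)`, and with `T` it is the whole group.
-/

set_option autoImplicit false

namespace Cfsg.Agent.FFMin

open Cfsg.Agent.Fusion Cfsg.Agent.CF
open LAE79 (fixV mem_fixV stabV mem_stabV_of_forall pointwiseV)

variable {P : Type*} [Group P] {V : Type*} [AddCommGroup V] [DistribMulAction P V] {p : ℕ}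
variable [Finite P] [Finite V] [Fact p.Prime] {T : Sylow p P} {M : Subgroup P}

omit [Finite V] [Fact p.Prime] [Finite P] [DistribMulAction P V] in
theorem card_sup_le [Finite V] (X Y : AddSubgroup V) :
    Nat.card (X ⊔ Y : AddSubgroup V) ≤ Nat.card X * Nat.card Y := by
  have h1 : Nat.card (X ⊔ Y : AddSubgroup V) = Nat.card X * X.relIndex Y := by
    rw [← AddSubgroup.relIndex_bot_left (X ⊔ Y), ← AddSubgroup.relIndex_mul_relIndex ⊥ X (X ⊔ Y) bot_le
      le_sup_left, AddSubgroup.relIndex_bot_left, sup_comm, AddSubgroup.relIndex_sup_right]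
  rw [h1]
  exact Nat.mul_le_mul_left _ (Nat.le_of_dvd Nat.card_pos (AddSubgroup.relIndex_dvd_card X Y))

omit [Finite V] [Fact p.Prime] [Finite P] [DistribMulAction P V] in
theorem inf_eq_bot_of_card [Finite V] {X Y W : AddSubgroup V} (hW : W ≤ X ⊔ Y)
    (h : Nat.card X * Nat.card Y ≤ Nat.card W) : X ⊓ Y = ⊥ := by
  have h1 : Nat.card (X ⊔ Y : AddSubgroup V) = Nat.card X * X.relIndex Y := by
    rw [← AddSubgroup.relIndex_bot_left (X ⊔ Y), ← AddSubgroup.relIndex_mul_relIndex ⊥ X (X ⊔ Y) bot_le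
      le_sup_left, AddSubgroup.relIndex_bot_left, sup_comm, AddSubgroup.relIndex_sup_right]
  have h2 : Nat.card (X ⊓ Y : AddSubgroup V) * X.relIndex Y = Nat.card Y := by
    rw [← AddSubgroup.inf_relIndex_right X Y, ← AddSubgroup.relIndex_bot_left Y,
      ← AddSubgroup.relIndex_bot_left (X ⊓ Y)]
    exact AddSubgroup.relIndex_mul_relIndex _ _ _ bot_le inf_le_right
  have h3 := h.trans ((AddSubgroup.card_le_of_le hW).trans h1.le)
  have h4 : Nat.card Y ≤ X.relIndex Y := Nat.le_of_mul_le_mul_left h3 Nat.card_pos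
  have hpos : 0 < X.relIndex Y := lt_of_lt_of_le Nat.card_pos h4
  have h5 : Nat.card (X ⊓ Y : AddSubgroup V) ≤ 1 := by
    refine Nat.le_of_mul_le_mul_right ?_ hpos
    rw [h2, one_mul]; exact h4
  exact AddSubgroup.card_eq_one.1 (le_antisymm h5 Nat.card_pos)

omit [Finite V] [Fact p.Prime] [Finite P] in
/-- An element with `(w - 1)³ = 0` has order dividing `p`. -/
theorem pow_prime_smul {w : P} (hp : p ≠ 2) [hpp : Fact p.Prime] (hexp : ∀ v : V, p • v = 0)
    {X Y : AddSubgroup V} (hY : ∀ v : V, w • v - v ∈ Y) (hX : ∀ v ∈ Y, w • v - v ∈ X)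
    (h0 : ∀ v ∈ X, w • v = v) (v : V) : w ^ p • v = v := by
  set δ := w • v - v with hδ
  set δ' := w • δ - δ with hδ'
  have e1 : w • δ = δ + δ' := by rw [hδ']; abel
  have e2 : w • δ' = δ' := h0 _ (hX _ (hY v))
  have key : ∀ n : ℕ, w ^ n • v = v + n • δ + n.choose 2 • δ' := by
    intro n
    induction n with
    | zero => simp
    | succ n ih =>
      rw [pow_succ', mul_smul, ih, smul_add, smul_add, smul_comm w n, smul_comm w (n.choose 2), e1,
        e2, show w • v = v + δ by rw [hδ]; abel, Nat.choose_succ_succ, Nat.choose_one_right,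
        succ_nsmul, add_nsmul, nsmul_add]
      abel
  rw [key, hexp]
  obtain ⟨c, hc⟩ := hpp.out.dvd_choose_self (two_ne_zero)
    (lt_of_le_of_ne hpp.out.two_le (Ne.symm hp))
  rw [hc, mul_comm, mul_nsmul', hexp, nsmul_zero, add_zero, add_zero]

variable (V) in
/-- The structure forced on the group. -/
structure Struct (p : ℕ) (T : Sylow p P) (A L : Subgroup P) : Prop where
  off : Off V p A
  AT : A ≤ (T : Subgroup P)
  unique : ∀ E : Subgroup P, Off V p E → E ≤ (T : Subgroup P) → E = A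
  normal : L.Normal
  closure : Subgroup.normalClosure (A : Set P) = L
  top : L ⊔ (T : Subgroup P) = ⊤
  axis : ∀ b ∈ (T : Subgroup P), (∀ v ∈ fixV (V := V) A, b • v = v) → b ∈ A
  quad : cmV V A ≤ fixV (V := V) A
  card_c : Nat.card (cmV V A) = Nat.card A
  disp : ∀ a ∈ A, a ≠ 1 → ∀ x ∈ cmV V A, ∃ v, a • v - v = x
  span : ∀ v : V, ∃ (g : P) (x : V), x ∈ cmV V A ∧ v - g • x ∈ fixV (V := V) A
  sl2 : ∃ (F : Type) (_ : Field F) (_ : Fintype F) (n : ℕ), 1 ≤ n ∧ Fintype.card F = p ^ n ∧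
    Nonempty (L ≃* Matrix.SpecialLinearGroup (Fin 2) F)

theorem Hyp.exists_struct (D : Hyp V p T M) (hp : p ≠ 2)
    (hex : ∃ E : Subgroup P, Off V p E ∧ E ≤ (T : Subgroup P))
    (hSE : ∀ u : V, (∀ E : Subgroup P, Off V p E → E ≤ (T : Subgroup P) → u ∈ fixV (V := V) E) →
      u ∉ fixV (V := V) (⊤ : Subgroup P) → ∀ g : P, g • u = u → g ∈ M) :
    ∃ A L : Subgroup P, Struct V p T A L ∧ ¬ L ≤ M := by
  classical
  -- a good minimal offender of least order
  obtain ⟨E₀, hE₀, hE₀T⟩ := hex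
  obtain ⟨B₀, hB₀E, hB₀⟩ := hE₀.exists_min
  obtain ⟨A₀, ⟨hA₀, hA₀T⟩, hA₀min⟩ := Set.exists_min_image
    {B : Subgroup P | Min V p B ∧ B ≤ (T : Subgroup P)} (fun B => Nat.card B) (Set.toFinite _)
    ⟨B₀, hB₀, hB₀E.trans hE₀T⟩
  obtain ⟨g₀, L, z, hAT, G, F, fF, ftF, ⟨R⟩⟩ := exists_good hp D.toHyp₀ hA₀ hA₀T
  set A := cj g₀ A₀ with hAdef
  have hA : Min V p A := hA₀.cj g₀
  have hAle : ∀ B, Min V p B → B ≤ (T : Subgroup P) → Nat.card A ≤ Nat.card B := fun B h h' =>
    (card_cj g₀ A₀).le.trans (hA₀min B ⟨h, h'⟩)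
  -- the set `U`
  let inU : V → Prop := fun u =>
    ∀ E : Subgroup P, Off V p E → E ≤ (T : Subgroup P) → u ∈ fixV (V := V) E
  have hcU : ∀ B, Min V p B → B ≤ (T : Subgroup P) → ∀ x ∈ cmV V B, inU x :=
    fun B hB hBT x hx E hE hET d hd => (D.normalise hp hB hBT hE hET d hd).2 x hx
  -- halving
  have hhalf : ∀ v : V, ((p + 1) / 2) • (v + v) = v := fun v => by
    have h2 : 2 * ((p + 1) / 2) = p + 1 := by
      obtain ⟨k, hk⟩ := (Fact.out : p.Prime).odd_of_ne_two hp
      omega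
    rw [← two_nsmul, ← mul_nsmul, h2, succ_nsmul, D.exp, zero_add]
  set C := fixV (V := V) L with hC
  have hzz : ∀ v : V, z • z • v = v := fun v => by
    have h := G.zH v z G.zL
    rw [smul_add] at h
    exact add_right_cancel (h.trans (add_comm _ _))
  have hzinv : ∀ v : V, z⁻¹ • v = z • v := fun v => inv_smul_eq_iff.2 (hzz v).symm
  have hCA : C ≤ fixV (V := V) A := fixV_anti G.AL
  have hzA : ∀ a ∈ A, z * a = a * z := fun a ha => G.zcomm a (G.AL ha)
  have hzfix : ∀ v ∈ fixV (V := V) A, z • v ∈ fixV (V := V) A := fun v hv a ha => by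
    rw [← mul_smul, ← hzA a ha, mul_smul, hv a ha]
  have haxis : ∀ h ∈ fixV (V := V) A, ∃ x ∈ cmV V A, ∃ u ∈ C, x + u = h := by
    intro h hh
    refine ⟨((p + 1) / 2) • (h - z • h), G.cH _
      (AddSubgroup.nsmul_mem _ (sub_mem hh (hzfix h hh)) _) ?_, ((p + 1) / 2) • (z • h + h),
      AddSubgroup.nsmul_mem _ (G.zH h) _, ?_⟩
    · rw [smul_comm, smul_sub, hzz, ← neg_sub h, neg_nsmul]
    · rw [← nsmul_add, show h - z • h + (z • h + h) = h + h by abel, hhalf]
  have hCz : ∀ u ∈ C, z • u = u := fun u hu => hu z G.zL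
  have hUdec : ∀ u, inU u → ∃ x ∈ cmV V A, ∃ w ∈ fixV (V := V) (⊤ : Subgroup P), x + w = u := by
    intro u hu
    obtain ⟨x, hx, w, hw, rfl⟩ := haxis u (hu A hA.1 hAT)
    refine ⟨x, hx, w, ?_, rfl⟩
    by_contra hw0
    refine G.LM fun l hl => hSE w (fun E hE hET => ?_) hw0 l (hw l hl)
    have h1 := sub_mem (hu E hE hET) (hcU A hA hAT x hx E hE hET)
    rwa [add_sub_cancel_left] at h1
  have hzU : ∀ u, inU u → inU (z • u) := by
    intro u hu E hE hET
    obtain ⟨x, hx, w, hw, rfl⟩ := hUdec u hu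
    rw [smul_add, G.zc x hx, hw z trivial]
    exact add_mem (neg_mem (hcU A hA hAT x hx E hE hET)) fun a _ => hw a trivial
  -- uniqueness
  have huni : ∀ B, Min V p B → B ≤ (T : Subgroup P) → B = A := by
    intro B hB hBT
    by_contra hBA
    set B' := cj z B with hB'
    have hBm : Min V p B' := hB.cj z
    have hAB := D.min_commute hp hA hB hAT hBT
    have hAB' : ∀ a ∈ A, ∀ b ∈ B', a * b = b * a := by
      rintro a ha _ ⟨b, hb, rfl⟩
      show a * (z * b * z⁻¹) = z * b * z⁻¹ * a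
      have e : z⁻¹ * a = a * z⁻¹ := by
        rw [inv_mul_eq_iff_eq_mul, ← mul_assoc, hzA a ha, mul_inv_cancel_right]
      calc a * (z * b * z⁻¹) = z * a * b * z⁻¹ := by simp only [← mul_assoc]; rw [hzA a ha]
        _ = z * b * (a * z⁻¹) := by rw [mul_assoc z a b, hAB a ha b hb]; simp only [← mul_assoc]
        _ = z * b * z⁻¹ * a := by rw [← e, ← mul_assoc]
    have hBB' : ∀ b ∈ B, ∀ b' ∈ B', b * b' = b' * b := by
      refine commute_of_cross D.faith (fun x hx => ?_) fun x hx => ?_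
      · rw [mem_fixV_cj, hzinv]
        exact hzU x (hcU B hB hBT x hx) B hB.1 hBT
      · have h := mem_cmV_cj.1 hx
        rw [← smul_inv_smul z x]
        exact hzU _ (hcU B hB hBT _ h) B hB.1 hBT
    have hB'A : B' ≠ A := fun h => hBA (by
      rw [← cj_inv_cj z B, ← hB', h, cj_eq_of_mem]
      refine mem_Nz.2 (Subgroup.eq_of_le_of_card_ge ?_ (card_cj z⁻¹ A).ge)
      rintro _ ⟨a, ha, rfl⟩
      simpa [mul_assoc, ← hzA a ha] using ha)
    obtain ⟨FB, _, _, ⟨RB⟩⟩ := D.toHyp₀.exists_root hp hB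
    obtain ⟨x, hx, hx0⟩ : ∃ x ∈ cmV V B, x ≠ 0 := by
      refine ⟨RB.μ 1, RB.cmV_eq.ge ⟨1, rfl⟩, fun h => ?_⟩
      exact one_ne_zero (RB.μ_inj (h.trans (map_zero _).symm))
    obtain ⟨c, hc, w, hw, hxw⟩ := hUdec x (hcU B hB hBT x hx)
    have hc0 : c ≠ 0 := fun h => hx0 (RB.inter_c hx (by rw [← hxw, h, zero_add]; exact hw))
    have hy : z • x ∈ cmV V B' := smul_mem_cmV_cj hx
    have hmem : c + c ∈ cmV V B ⊔ cmV V B' := by
      have : c + c = x - z • x := by rw [← hxw, smul_add, G.zc c hc, hw z trivial]; abel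
      rw [this]
      exact sub_mem (AddSubgroup.mem_sup_left hx) (AddSubgroup.mem_sup_right hy)
    have hcB : Nat.card B' = Nat.card B := card_cj z B
    have hqA : Nat.card A ≤ Nat.card B := hAle B hB hBT
    have hq1 := hA.one_lt_card
    have hq2 := hB.one_lt_card
    set s : Finset (Subgroup P) := {A, B, B'} with hs
    have hs' : ∀ X ∈ s, X = A ∨ X = B ∨ X = B' := fun X hX => by simpa [hs] using hX
    obtain ⟨-, -, -, -, hcm⟩ := D.indep hp s
      (fun X hX => by rcases hs' X hX with rfl | rfl | rfl <;> assumption)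
      (fun X hX Y hY => by
        rcases hs' X hX with rfl | rfl | rfl <;> rcases hs' Y hY with rfl | rfl | rfl
        · exact fun a ha b hb => congrArg Subtype.val (hA.1.comm.1.1 ⟨a, ha⟩ ⟨b, hb⟩)
        · exact hAB
        · exact hAB'
        · exact fun a ha b hb => (hAB b hb a ha).symm
        · exact fun a ha b hb => congrArg Subtype.val (hB.1.comm.1.1 ⟨a, ha⟩ ⟨b, hb⟩)
        · exact hBB'
        · exact fun a ha b hb => (hAB' b hb a ha).symm
        · exact fun a ha b hb => (hBB' b hb a ha).symm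
        · exact fun a ha b hb => congrArg Subtype.val (hBm.1.comm.1.1 ⟨a, ha⟩ ⟨b, hb⟩))
      (fun X hX Y hY Z hZ h1 h2 h3 => by
        have e : Nat.card X ≤ Nat.card B := by
          rcases hs' X hX with rfl | rfl | rfl
          exacts [hqA, le_rfl, hcB.le]
        have e2 : ∀ W ∈ s, 1 < Nat.card W := fun W hW => by
          rcases hs' W hW with rfl | rfl | rfl <;> omega
        have e3 : Nat.card B ≤ Nat.card Y ∨ Nat.card B ≤ Nat.card Z := by
          rcases hs' Y hY with rfl | rfl | rfl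
          · rcases hs' Z hZ with rfl | rfl | rfl
            · exact absurd rfl h3
            · exact Or.inr le_rfl
            · exact Or.inr hcB.ge
          · exact Or.inl le_rfl
          · exact Or.inl hcB.ge
        have := e2 Y hY
        have := e2 Z hZ
        rcases e3 with e3 | e3
        · exact lt_of_le_of_lt (e.trans e3) (lt_mul_of_one_lt_right (by omega) (by omega))
        · exact lt_of_le_of_lt (e.trans e3) (lt_mul_of_one_lt_left (by omega) (by omega)))
    have hcmA := D.toHyp₀.card_c_eq hp hA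
    have hcmB := D.toHyp₀.card_c_eq hp hB
    have hcmB' := D.toHyp₀.card_c_eq hp hBm
    have hbot : cmV V A ⊓ (cmV V B ⊔ cmV V B') = ⊥ := by
      by_cases hBB : B' = B
      · have hsG : s.sup id = A ⊔ B := by
          rw [hs, hBB, show ({A, B, B} : Finset (Subgroup P)) = {A, B} by simp]
          simp
        rw [hBB, sup_idem]
        refine inf_eq_bot_of_card (cmV_sup (V := V) A B) ?_
        rw [← hsG, hcm, hcmA, hcmB, hs, hBB]
        rw [show ({A, B, B} : Finset (Subgroup P)) = {A, B} by simp, Finset.prod_pair (Ne.symm hBA)]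
      · have hsG : s.sup id = A ⊔ (B ⊔ B') := by
          rw [hs]; simp
        refine inf_eq_bot_of_card (W := cmV V (A ⊔ (B ⊔ B')))
          ((cmV_sup A _).trans (sup_le_sup_left (cmV_sup B B') _)) ?_
        rw [← hsG, hcm, hs, Finset.prod_insert (by simp [Ne.symm hBA, Ne.symm hB'A]),
          Finset.prod_pair (Ne.symm hBB), hcmA, ← hcmB, ← hcmB']
        exact Nat.mul_le_mul_left _ (card_sup_le _ _)
    have h2 : c + c ∈ cmV V A ⊓ (cmV V B ⊔ cmV V B') := ⟨add_mem hc hc, hmem⟩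
    rw [hbot, AddSubgroup.mem_bot] at h2
    exact hc0 (by rw [← hhalf c, h2, nsmul_zero])
  -- normality in `T`, the criterion
  have hTA : ∀ t ∈ (T : Subgroup P), cj t A = A := fun t ht =>
    huni _ (hA.cj t) ((cj_mono t hAT).trans (cj_eq_self_of_mem ht).le)
  have hNA : Nz A ≤ M := D.toHyp₀.Nz_le hA.1.pg hA.1.ne fun t ht => mem_Nz.2 (hTA t ht)
  have hconjT : ∀ a : P, cj a A ≤ (T : Subgroup P) → a ∈ Nz A := fun a ha =>
    mem_Nz.2 (huni _ (hA.cj a) ha)
  have hcrit : ∀ g : P, cj g A ≤ M → g ∈ M := fun g hg => by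
    obtain ⟨m, hm, hle⟩ := D.toHyp₀.exists_conj_le_M (isPGroup_cj hA.1.pg g) hg
    have h1 : m⁻¹ * g ∈ M := hNA (hconjT _ (by
      rw [← cj_cj]; exact cj_le_iff.2 (by rwa [inv_inv])))
    simpa using mul_mem hm h1
  have hstabc : ∀ x ∈ cmV V A, x ≠ 0 → ∀ g : P, g • x = x → g ∈ M := fun x hx hx0 =>
    hSE x (hcU A hA hAT x hx) fun h => hx0 (R.inter_c hx h)
  have hfixconj : ∀ (h g : P), ∀ x ∈ cmV V A, x ≠ 0 → h • x ∈ fixV (V := V) (cj g A) →
      h⁻¹ * g ∈ M := by
    intro h g x hx hx0 hfix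
    refine hcrit _ fun y hy => hstabc x hx hx0 y ?_
    obtain ⟨a, ha, rfl⟩ := hy
    have h1 := hfix _ (conj_mem_cj (g := g).2 ha)
    show (h⁻¹ * g * a * (h⁻¹ * g)⁻¹) • x = x
    calc (h⁻¹ * g * a * (h⁻¹ * g)⁻¹) • x = h⁻¹ • ((g * a * g⁻¹) • h • x) := by
          simp only [← mul_smul]; congr 1; group
      _ = x := by rw [h1, inv_smul_smul]
  have hopp : ∀ g : P, g ∉ M → ∀ x ∈ cmV V A, g • x ∈ fixV (V := V) A → x = 0 := by
    intro g hg x hx hfix
    by_contra hx0
    refine hg ?_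
    have := hfixconj g 1 x hx hx0 (by rwa [cj_one])
    rw [mul_one] at this
    simpa using inv_mem this
  have hspan : ∀ g : P, g ∉ M → ∀ v : V, ∃ x ∈ cmV V A, v - g • x ∈ fixV (V := V) A := by
    intro g hg v
    let f : cmV V A → V ⧸ fixV (V := V) A := fun x => ((g • (x : V) : V) : V ⧸ fixV (V := V) A)
    have hf : Function.Injective f := fun x y h => by
      have h1 : -(g • (x : V)) + g • (y : V) ∈ fixV (V := V) A := QuotientAddGroup.eq.1 h
      have h2 := hopp g hg ((y : V) - x) (sub_mem y.2 x.2) (by rw [smul_sub, sub_eq_neg_add]; exact h1)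
      exact Subtype.ext (sub_eq_zero.1 h2).symm
    have hcard : Nat.card (cmV V A) = Nat.card (V ⧸ fixV (V := V) A) := by
      refine Nat.eq_of_mul_eq_mul_right (Nat.card_pos (α := fixV (V := V) A)) ?_
      rw [← AddSubgroup.card_eq_card_quotient_mul_card_addSubgroup, R.card_c, ← R.card_V]
    obtain ⟨x, hx⟩ := ((Nat.bijective_iff_injective_and_card f).2 ⟨hf, hcard⟩).2 (v : V ⧸ _)
    refine ⟨x, x.2, ?_⟩
    have h1 : -(g • (x : V)) + v ∈ fixV (V := V) A := QuotientAddGroup.eq.1 hx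
    rwa [sub_eq_neg_add]
  -- straightening an element which is trivial on the centre and modulo the axis
  have hcore : ∀ e : P, (∃ k, orderOf e = p ^ k) → (∀ a ∈ A, e * a * e⁻¹ ∈ A) →
      (∀ x ∈ cmV V A, e • x = x) → ∃ a ∈ A, ∃ g : P, g ∉ M ∧
        (∀ v, (a * e) • v - v ∈ fixV (V := V) A) ∧ (∀ x ∈ cmV V A, (a * e) • g • x = g • x) ∧
        (∀ h ∈ fixV (V := V) (cj g A), (a * e) • h ∈ fixV (V := V) (cj g A)) := by
    intro e hek heA hec
    obtain ⟨hea, heV⟩ := R.of_fix_c D.exp hek heA hec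
    obtain ⟨g, hg⟩ : ∃ g : P, g ∉ M := by
      by_contra h
      push Not at h
      exact D.Mne (eq_top_iff.2 fun x _ => h x)
    obtain ⟨x₀, hx₀, hx₀0⟩ : ∃ x ∈ cmV V A, x ≠ 0 := by
      refine ⟨R.μ 1, R.cmV_eq.ge ⟨1, rfl⟩, fun h => ?_⟩
      exact one_ne_zero (R.μ_inj (h.trans (map_zero _).symm))
    set v₀ := g • x₀ with hv₀
    have hv₀A : v₀ ∉ fixV (V := V) A := fun h => hx₀0 (hopp g hg x₀ hx₀ h)
    have hginv : g⁻¹ ∉ M := fun h => hg (by simpa using inv_mem h)
    obtain ⟨η', hη', hη''⟩ := hspan g⁻¹ hginv (g⁻¹ • (e • v₀ - v₀))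
    -- `η'` is the part in the centre
    have hw : e • v₀ - v₀ - η' ∈ fixV (V := V) (cj g A) := by
      rw [mem_fixV_cj, smul_sub]; exact hη''
    obtain ⟨a, ha, haη⟩ := R.exists_elt hv₀A (neg_mem hη')
    have hηH : η' ∈ fixV (V := V) A := R.c_le hη'
    have hH : e • v₀ - v₀ ∈ fixV (V := V) A := heV v₀
    have he' : (a * e) • v₀ ∈ fixV (V := V) (cj g A) := by
      have h1 : (a * e) • v₀ = v₀ + (e • v₀ - v₀ - η') := by
        have h2 : a • (e • v₀ - v₀) = e • v₀ - v₀ := hH a ha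
        rw [smul_sub, ← mul_smul, sub_eq_iff_eq_add] at h2
        rw [h2, sub_eq_iff_eq_add.1 haη]
        abel
      rw [h1]
      exact add_mem (smul_mem_fixV_cj (R.c_le hx₀)) hw
    set e' := a * e with he'def
    have h3 : (e' * g)⁻¹ * g ∈ M := hfixconj (e' * g) g x₀ hx₀ hx₀0 (by rwa [mul_smul])
    have hcom : Commute a e := ((hea a ha).symm : a * e = e * a)
    obtain ⟨ka, hka⟩ := (IsPGroup.iff_orderOf.1 hA.1.pg) ⟨a, ha⟩
    rw [Subgroup.orderOf_mk] at hka
    obtain ⟨k, hk⟩ := hek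
    obtain ⟨j, -, hj⟩ := (Nat.dvd_prime_pow (Fact.out : p.Prime)).1
      ((hcom.orderOf_mul_dvd_lcm).trans (by
        rw [hka, hk]
        exact Nat.lcm_dvd (pow_dvd_pow p (le_max_left ka k)) (pow_dvd_pow p (le_max_right ka k))))
    set f := g⁻¹ * e' * g with hf
    have hfM : f ∈ M := by
      have := inv_mem h3
      simpa [hf, mul_assoc] using this
    have hfp : IsPGroup p (Subgroup.zpowers f) :=
      IsPGroup.of_card (n := j) (by
        rw [Nat.card_zpowers, hf, show g⁻¹ * e' * g = MulAut.conj g⁻¹ e' by simp]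
        exact (orderOf_injective (MulAut.conj g⁻¹).toMonoidHom (MulAut.conj g⁻¹).injective e').trans hj)
    obtain ⟨m, hm, hfm⟩ := D.toHyp₀.exists_conj_le_M hfp (Subgroup.zpowers_le.2 hfM)
    have hfm' : m⁻¹ * f * m ∈ (T : Subgroup P) := mem_cj.1 (hfm (Subgroup.mem_zpowers f))
    have hgm : g * m ∉ M := fun h => hg (by simpa using mul_mem h (inv_mem hm))
    have hnorm : cj e' (cj (g * m) A) = cj (g * m) A := by
      rw [cj_cj, show e' * (g * m) = g * m * (m⁻¹ * f * m) by rw [hf]; group, ← cj_cj, hTA _ hfm']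
    have hV : ∀ v, e' • v - v ∈ fixV (V := V) A := fun v => by
      have h2 : a • (e • v - v) = e • v - v := heV v a ha
      rw [smul_sub, ← mul_smul, sub_eq_iff_eq_add] at h2
      rw [h2, add_sub_assoc]
      exact add_mem (heV v) (R.c_le (sub_mem_cmV ha v))
    refine ⟨a, ha, g * m, hgm, hV, fun x hx => ?_, fun h hh => ?_⟩
    · have h1 : e' • (g * m) • x ∈ cmV V (cj (g * m) A) := by
        rw [← hnorm]; exact smul_mem_cmV_cj (smul_mem_cmV_cj hx)
      have h2 := mem_cmV_cj.1 (sub_mem h1 (smul_mem_cmV_cj hx))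
      have h3 : (g * m) • (g * m)⁻¹ • (e' • (g * m) • x - (g * m) • x) ∈ fixV (V := V) A := by
        rw [smul_inv_smul]; exact hV _
      have h4 := hopp _ hgm _ h2 h3
      rwa [← smul_zero ((g * m)⁻¹), smul_left_cancel_iff, sub_eq_zero] at h4
    · rw [← hnorm]; exact smul_mem_fixV_cj hh
  -- elements centralising the layers lie in `A`
  have hsmallA : ∀ w : P, (∃ k, orderOf w = p ^ k) → (∀ a ∈ A, w * a * w⁻¹ ∈ A) →
      (∀ x ∈ cmV V A, w • x = x) → (∀ h ∈ fixV (V := V) A, w • h - h ∈ cmV V A) → w ∈ A := by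
    intro w hwk hwA hwc hwH
    obtain ⟨a, ha, g, hg, hV, hgc, hgH⟩ := hcore w hwk hwA hwc
    have hginv : g⁻¹ ∉ M := fun h => hg (by simpa using inv_mem h)
    have hfix : ∀ h ∈ fixV (V := V) A, (a * w) • h = h := by
      intro h hh
      obtain ⟨x, hx, hxd⟩ := hspan g⁻¹ hginv (g⁻¹ • h)
      rw [← smul_sub] at hxd
      have hh₂ : h - x ∈ fixV (V := V) (cj g A) := mem_fixV_cj.2 hxd
      have hh₁ : h - x ∈ fixV (V := V) A := sub_mem hh (R.c_le hx)
      have hd : (a * w) • (h - x) - (h - x) ∈ cmV V A := by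
        have hwh : w • (h - x) ∈ fixV (V := V) A := by
          have := add_mem (R.c_le (hwH _ hh₁)) hh₁
          rwa [sub_add_cancel] at this
        rw [mul_smul, hwh a ha]; exact hwH _ hh₁
      have hd0 : (a * w) • (h - x) - (h - x) = 0 := hopp g⁻¹ hginv _ hd
        (mem_fixV_cj.1 (sub_mem (hgH _ hh₂) hh₂))
      have hx' : (a * w) • x = x := by rw [mul_smul, hwc x hx, R.c_le hx a ha]
      rw [sub_eq_zero, smul_sub, hx', sub_left_inj] at hd0
      exact hd0
    have h1 : a * w = 1 := D.faith _ fun v => by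
      obtain ⟨x, hx, hd⟩ := hspan g hg v
      have := hfix _ hd
      rwa [smul_sub, hgc x hx, sub_left_inj] at this
    rw [← inv_inv w, ← eq_inv_of_mul_eq_one_left h1]
    exact inv_mem ha
  -- invariance of the two summands
  have hLT : L ⊔ (T : Subgroup P) = ⊤ :=
    by_contra fun h => G.LM (le_sup_left.trans (D.uniq _ h le_sup_right))
  let N : AddSubgroup V :=
    { carrier := {v | z • v = -v}
      zero_mem' := by simp
      add_mem' := fun {u v} hu hv => by
        show z • (u + v) = -(u + v)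
        rw [smul_add, hu, hv]; abel
      neg_mem' := fun {u} hu => by
        show z • -u = - -u
        rw [smul_neg, hu] }
  have hcN : cmV V A ≤ N := fun x hx => G.zc x hx
  have htz : ∀ t ∈ (T : Subgroup P), t * z * t⁻¹ * z ∈ A := by
    intro t ht
    have hti : t⁻¹ ∈ (T : Subgroup P) := inv_mem ht
    have hct : ∀ t ∈ (T : Subgroup P), ∀ x ∈ cmV V A, t • x ∈ cmV V A := fun t ht x hx => by
      have := smul_mem_cmV_cj (g := t) hx; rwa [hTA t ht] at this
    have hHt : ∀ t ∈ (T : Subgroup P), ∀ x ∈ fixV (V := V) A, t • x ∈ fixV (V := V) A :=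
      fun t ht x hx => by
        have := smul_mem_fixV_cj (g := t) hx; rwa [hTA t ht] at this
    have hzc : ∀ h ∈ fixV (V := V) A, z • h - h ∈ cmV V A := fun h hh => by
      obtain ⟨x, hx, u, hu, rfl⟩ := haxis h hh
      rw [smul_add, G.zc x hx, hCz u hu, show -x + u - (x + u) = -x - x by abel]
      exact sub_mem (neg_mem hx) hx
    have hzV : ∀ v, z • v + v ∈ fixV (V := V) A := fun v => hCA (G.zH v)
    have hz' : ∀ v : V, (t * z * t⁻¹) • v = t • z • t⁻¹ • v := fun v => by rw [mul_smul, mul_smul]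
    set w := t * z * t⁻¹ * z with hw
    have hwc : ∀ x ∈ cmV V A, w • x = x := fun x hx => by
      rw [hw, mul_smul, G.zc x hx, smul_neg, hz', G.zc _ (hct _ hti x hx), smul_neg, smul_inv_smul,
        neg_neg]
    have hwH : ∀ h ∈ fixV (V := V) A, w • h - h ∈ cmV V A := fun h hh => by
      rw [hw, mul_smul, hz']
      have h1 := hct t ht _ (hzc _ (hHt _ hti _ (hzfix h hh)))
      rw [smul_sub, smul_inv_smul] at h1
      have := add_mem h1 (hzc h hh)
      rwa [sub_add_sub_cancel] at this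
    have hwV : ∀ v, w • v - v ∈ fixV (V := V) A := fun v => by
      rw [hw, mul_smul, hz']
      have h1 := hHt t ht _ (hzV (t⁻¹ • z • v))
      rw [smul_add, smul_inv_smul] at h1
      have := sub_mem h1 (hzV v)
      rwa [add_sub_add_comm, show ∀ a b c : V, a - b + (b - c) = a - c from fun a b c => by abel] at this
    have hwA : ∀ a ∈ A, w * a * w⁻¹ ∈ A := by
      have key : ∀ u ∈ Nz A, ∀ a ∈ A, u * a * u⁻¹ ∈ A := fun u hu a ha => by
        rw [← mem_Nz.1 hu]; exact conj_mem_cj.2 ha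
      have hzN : z ∈ Nz A := mem_Nz.2 (Subgroup.eq_of_le_of_card_ge (by
        rintro _ ⟨a, ha, rfl⟩
        simpa [hzA a ha, mul_assoc] using ha) (card_cj z A).ge)
      have htN : t ∈ Nz A := mem_Nz.2 (hTA t ht)
      exact key w (mul_mem (mul_mem (mul_mem htN hzN) (inv_mem htN)) hzN)
    have hwp : w ^ p = 1 := D.faith _
      (pow_prime_smul hp D.exp hwV hwH hwc)
    exact hsmallA w (by
      obtain ⟨j, -, hj⟩ := (Nat.dvd_prime_pow (Fact.out : p.Prime)).1
        ((orderOf_dvd_of_pow_eq_one hwp).trans (pow_one p).symm.dvd)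
      exact ⟨j, hj⟩) hwA hwc hwH
  have hCinv : ∀ g : P, ∀ u ∈ C, g • u ∈ C := by
    have key : (T : Subgroup P) ≤ stabV (C : AddSubgroup V) := fun t ht =>
      mem_stabV_of_forall fun u hu => G.zfix _ <| by
        have h1 := htz t⁻¹ (inv_mem ht)
        have h2 : (t⁻¹ * z * t⁻¹⁻¹ * z) • u = u := hCA hu _ h1
        rw [mul_smul, hCz u hu, inv_inv, mul_smul, mul_smul, inv_smul_eq_iff] at h2
        exact h2
    have hL : L ≤ stabV (C : AddSubgroup V) := fun l hl => mem_stabV_of_forall fun u hu => by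
      rw [hu l hl]; exact hu
    intro g u hu
    exact ((hLT ▸ sup_le hL key : (⊤ : Subgroup P) ≤ stabV C) (Subgroup.mem_top g) u).2 hu
  have hNinv : ∀ g : P, ∀ n ∈ N, g • n ∈ N := by
    have key : (T : Subgroup P) ≤ stabV N := fun t ht => mem_stabV_of_forall fun n hn => by
      have h1 := htz t⁻¹ (inv_mem ht)
      rw [inv_inv] at h1
      set a := t⁻¹ * z * t * z with ha
      have hn' : z • n = -n := hn
      show z • t • n = -(t • n)
      have h3 : a • n = -(t⁻¹ • z • t • n) := by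
        rw [ha, mul_smul, hn', smul_neg, mul_smul, mul_smul]
      set x := t • (a • n - n) with hx
      have hxc : x ∈ cmV V A := by
        have := smul_mem_cmV_cj (g := t) (sub_mem_cmV (V := V) h1 n)
        rwa [hTA t ht] at this
      have hzy : z • t • n = -(t • n) - x := by
        rw [hx, smul_sub, h3, smul_neg, smul_inv_smul]; abel
      have h4 := congrArg (z • ·) hzy
      simp only [hzz, smul_sub, smul_neg, G.zc x hxc] at h4
      rw [hzy] at h4
      have hx0 : x + x = 0 := by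
        calc x + x = -(-(t • n) - x) - -x - t • n := by abel
          _ = _ := by rw [← h4, sub_self]
      have hx1 : x = 0 := by rw [← hhalf x, hx0, nsmul_zero]
      rw [hzy, hx1, sub_zero]
    have hL : L ≤ stabV N := fun l hl => mem_stabV_of_forall fun n hn => by
      show z • l • n = -(l • n)
      rw [← mul_smul, G.zcomm l hl, mul_smul, show z • n = -n from hn, smul_neg]
    intro g n hn
    exact ((hLT ▸ sup_le hL key : (⊤ : Subgroup P) ≤ stabV N) (Subgroup.mem_top g) n).2 hn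
  have hCN : ∀ v : V, ∃ n ∈ N, ∃ u ∈ C, n + u = v := fun v => by
    refine ⟨((p + 1) / 2) • (v - z • v), ?_, ((p + 1) / 2) • (z • v + v),
      AddSubgroup.nsmul_mem _ (G.zH v) _, ?_⟩
    · show z • _ = -_
      rw [smul_comm, smul_sub, hzz, ← neg_sub v, neg_nsmul]
    · rw [← nsmul_add, show v - z • v + (z • v + v) = v + v by abel, hhalf]
  -- the maximal subgroup normalises `A`
  have hMA : ∀ m ∈ M, cj m A = A := by
    intro m hm
    have hc : ∀ x ∈ cmV V A, m • x ∈ cmV V A := by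
      intro x hx
      rcases eq_or_ne x 0 with rfl | hx0
      · rw [smul_zero]; exact zero_mem _
      obtain ⟨l, hl, hlc⟩ := G.line (m • x) (hNinv m x (hcN hx))
        (fun h => hx0 (smul_left_cancel m (h.trans (smul_zero m).symm)))
      have hlM : l⁻¹ * m ∈ M := by
        by_contra hlm
        exact hx0 (hopp _ hlm x hx (by rw [mul_smul]; exact R.c_le hlc))
      have hlM' : l ∈ M := by
        have := mul_mem hm (inv_mem hlM)
        simpa using this
      have h1 := G.MH l hl hlM' _ (R.c_le hlc)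
      rw [smul_inv_smul] at h1
      exact G.cH _ h1 (hNinv m x (hcN hx))
    have hH : ∀ h ∈ fixV (V := V) A, m • h ∈ fixV (V := V) A := by
      intro h hh
      obtain ⟨x, hx, u, hu, rfl⟩ := haxis h hh
      rw [smul_add]
      exact add_mem (R.c_le (hc x hx)) (hCA (hCinv m u hu))
    have heq : fixV (V := V) (cj m A) = fixV (V := V) A := by
      refine AddSubgroup.eq_of_le_of_card_ge (fun v hv => ?_) (card_fixV_cj m A).ge
      have := hH _ (mem_fixV_cj.1 hv)
      rwa [smul_inv_smul] at this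
    have hcomm : ∀ a ∈ A, ∀ b ∈ cj m A, a * b = b * a :=
      commute_of_cross D.faith (fun x hx => heq.symm ▸ R.c_le hx) fun x hx => by
        have := hc _ (mem_cmV_cj.1 hx)
        rw [smul_inv_smul] at this
        exact R.c_le this
    have hN : cj m A ≤ Nz A := fun b hb => by
      refine mem_Nz.2 (Subgroup.eq_of_le_of_card_ge ?_ (card_cj b A).ge)
      rintro _ ⟨a, ha, rfl⟩
      simpa [← hcomm a ha b hb] using ha
    obtain ⟨b, hb⟩ := Hyp₀.exists_conj_le (T := T)
      (isPGroup_sup_normalizing hA.1.pg (isPGroup_cj hA.1.pg m) hN)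
    have hbT : ∀ X : Subgroup P, X ≤ cj b (T : Subgroup P) → cj b⁻¹ X ≤ (T : Subgroup P) :=
      fun X hX => cj_le_iff.2 (by rwa [inv_inv])
    have e1 := huni _ (hA.cj b⁻¹) (hbT _ (le_sup_left.trans hb))
    have e2 := huni _ ((hA.cj m).cj b⁻¹) (hbT _ (le_sup_right.trans hb))
    have := congrArg (cj b) (e2.trans e1.symm)
    rwa [cj_cj_inv, cj_cj_inv] at this
  -- the normal closure
  obtain ⟨x₀, hx₀, hx₀0⟩ : ∃ x ∈ cmV V A, x ≠ 0 := by
    refine ⟨R.μ 1, R.cmV_eq.ge ⟨1, rfl⟩, fun h => ?_⟩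
    exact one_ne_zero (R.μ_inj (h.trans (map_zero _).symm))
  have hconjL : ∀ g : P, cj g A ≤ L := fun g => by
    obtain ⟨l, hl, hlc⟩ := G.line (g • x₀) (hNinv g x₀ (hcN hx₀))
      (fun h => hx₀0 (smul_left_cancel g (h.trans (smul_zero g).symm)))
    have hh : l⁻¹ * g ∈ M := by
      by_contra hlm
      exact hx₀0 (hopp _ hlm x₀ hx₀ (by rw [mul_smul]; exact R.c_le hlc))
    have := hMA _ hh
    rw [← mul_inv_cancel_left l g, ← cj_cj, this]
    exact (cj_mono l G.AL).trans (cj_eq_self_of_mem hl).le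
  have hclos : Subgroup.normalClosure (A : Set P) = L := by
    refine le_antisymm ?_ ?_
    · rw [Subgroup.normalClosure, Subgroup.closure_le]
      intro y hy
      obtain ⟨a, ha, g, rfl⟩ := Group.mem_conjugatesOfSet_iff.1 hy |> fun ⟨a, ha, hc⟩ =>
        (⟨a, ha, isConj_iff.1 hc⟩ : ∃ a ∈ (A : Set P), ∃ g, g * a * g⁻¹ = y)
      exact hconjL g (conj_mem_cj.2 ha)
    · obtain ⟨x, hx, hLx⟩ := G.gen
      rw [hLx]
      refine sup_le (fun a ha => Subgroup.subset_normalClosure ha) ?_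
      rintro _ ⟨a, ha, rfl⟩
      exact (Subgroup.normalClosure_normal).conj_mem a (Subgroup.subset_normalClosure ha) x
  -- elements fixing the centre and the axis modulo the centre
  have hTc : ∀ d ∈ (T : Subgroup P), (∀ x ∈ cmV V A, d • x = x) → d ∈ A := by
    intro d hd hdc
    have hdA : ∀ a ∈ A, d * a * d⁻¹ ∈ A := fun a ha => by
      rw [← hTA d hd]; exact conj_mem_cj.2 ha
    obtain ⟨k, hk⟩ := (IsPGroup.iff_orderOf.1 T.2) ⟨d, hd⟩
    rw [Subgroup.orderOf_mk] at hk
    obtain ⟨a, ha, g, hg, hV, hgc, -⟩ := hcore d ⟨k, hk⟩ hdA hdc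
    set K₂ := pointwiseV (P := P) N with hK₂
    have hnfix : a * d ∈ K₂ := by
      intro n hn
      obtain ⟨x, hx, hd'⟩ := hspan g hg n
      have hd'' : n - g • x ∈ cmV V A := G.cH _ hd' (sub_mem hn (hNinv g x (hcN hx)))
      have h1 : (a * d) • (n - g • x) = n - g • x := by
        rw [mul_smul, hdc _ hd'', R.c_le hd'' a ha]
      rwa [smul_sub, hgc x hx, sub_left_inj] at h1
    have hnormal : K₂.Normal := ⟨fun k hk g n hn => by
      rw [mul_smul, mul_smul, hk _ (hNinv g⁻¹ n hn), smul_inv_smul]⟩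
    have hbot : (T : Subgroup P) ⊓ K₂ = ⊥ := by
      have hLK : ∀ l ∈ L, ∀ k ∈ K₂, k * l = l * k := fun l hl k hk => by
        refine (inv_mul_eq_one.1 (D.faith _ fun v => ?_)).symm
        obtain ⟨n, hn, u, hu, rfl⟩ := hCN v
        rw [mul_smul, inv_smul_eq_iff, mul_smul, mul_smul]
        simp only [smul_add]
        rw [hk n hn, hu l hl, hk _ (hNinv l n hn), (hCinv k u hu) l hl]
      refine D.core _ (Subgroup.normalizer_eq_top_iff.1 (top_le_iff.1 ?_)) (T.2.to_le inf_le_left)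
      rw [← hLT]
      refine sup_le (fun l hl => mem_Nz.2 (Subgroup.eq_of_le_of_card_ge ?_ (card_cj l _).ge))
        fun t ht => mem_Nz.2 (Subgroup.eq_of_le_of_card_ge ?_ (card_cj t _).ge)
      · rintro _ ⟨k, hk, rfl⟩
        show l * k * l⁻¹ ∈ (T : Subgroup P) ⊓ K₂
        rw [← hLK l hl k hk.2, mul_inv_cancel_right]
        exact hk
      · rintro _ ⟨k, hk, rfl⟩
        show t * k * t⁻¹ ∈ (T : Subgroup P) ⊓ K₂
        have hkT : k ∈ (T : Subgroup P) := hk.1
        exact ⟨(T : Subgroup P).mul_mem ((T : Subgroup P).mul_mem ht hkT) ((T : Subgroup P).inv_mem ht),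
          hnormal.conj_mem k hk.2 t⟩
    have h1 : a * d = 1 :=
      (Subgroup.eq_bot_iff_forall _).1 hbot _ ⟨mul_mem (hAT ha) hd, hnfix⟩
    rw [← inv_inv d, ← eq_inv_of_mul_eq_one_left h1]
    exact inv_mem ha
  refine ⟨A, L, ⟨hA.1, hAT, fun E hE hET => ?_, ?_, hclos, hLT, fun b hb hfix => ?_, R.c_le,
    R.card_c.trans R.card_A.symm, fun a ha ha1 x hx => R.exists_disp ha ha1 hx, fun v => ?_, ?_⟩, G.LM⟩
  · exact hA.2 E (fun d hd => hTc d (hET hd) fun x hx =>
      (D.normalise hp hA hAT hE hET d hd).2 x hx) hE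
  · rw [← hclos]; exact Subgroup.normalClosure_normal
  · exact hTc b hb fun x hx => hfix x (R.c_le hx)
  · obtain ⟨g, hg⟩ : ∃ g : P, g ∉ M := by
      by_contra h
      push Not at h
      exact D.Mne (eq_top_iff.2 fun x _ => h x)
    obtain ⟨x, hx, h⟩ := hspan g hg v
    exact ⟨g, x, hx, h⟩
  · obtain ⟨F', i1, i2, hcard, hiso⟩ := G.sl2
    obtain ⟨n, hn⟩ := IsPGroup.iff_card.1 hA.1.pg
    refine ⟨F', i1, i2, n, ?_, hcard.trans hn, hiso⟩
    rcases Nat.eq_zero_or_pos n with rfl | h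
    · have := hA.one_lt_card
      rw [hn, pow_zero] at this
      omega
    · exact h

end Cfsg.Agent.FFMin
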