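import Mathlib
import Cfsg.Agent.CF.Basic
import Cfsg.Agent.LAE79.OffenderGeometry

/-!
A finite group on a faithful module with a unique maximal subgroup over a Sylow subgroup, no normal
`p`-subgroup and a moved fixed point: weights, conjugation, and a minimal pair of conjugates outside
the maximal subgroup (the argument of Baer).
-/

set_option autoImplicit false

namespace Cfsg.Agent.FFMin

open Cfsg.Agent.Fusion Cfsg.Agent.CF
open LAE79 (fixV mem_fixV)

variable {P : Type*} [Group P] {V : Type*} [AddCommGroup V] [DistribMulAction P V] {p : ℕ}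

variable (V) in
/-- The commutator subgroup `[V,D]`. -/
def cmV (D : Subgroup P) : AddSubgroup V :=
  AddSubgroup.closure {w | ∃ a ∈ D, ∃ v : V, a • v - v = w}

theorem sub_mem_cmV {D : Subgroup P} {a : P} (ha : a ∈ D) (v : V) : a • v - v ∈ cmV V D :=
  AddSubgroup.subset_closure ⟨a, ha, v, rfl⟩

theorem cmV_le_iff {D : Subgroup P} {W : AddSubgroup V} :
    cmV V D ≤ W ↔ ∀ a ∈ D, ∀ v : V, a • v - v ∈ W :=
  ⟨fun h _ ha v => h (sub_mem_cmV ha v), fun h => (AddSubgroup.closure_le _).2 <| by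
    rintro _ ⟨a, ha, v, rfl⟩; exact h a ha v⟩

theorem fixV_anti {D E : Subgroup P} (h : D ≤ E) : fixV (V := V) E ≤ fixV D :=
  fun _ hv a ha => hv a (h ha)

theorem fixV_bot : fixV (V := V) (⊥ : Subgroup P) = ⊤ :=
  eq_top_iff.2 fun v _ a ha => by rw [Subgroup.mem_bot.1 ha, one_smul]

theorem fixV_sup (D E : Subgroup P) : fixV (V := V) (D ⊔ E) = fixV D ⊓ fixV E := by
  refine le_antisymm (le_inf (fixV_anti le_sup_left) (fixV_anti le_sup_right)) ?_
  rintro v ⟨hD, hE⟩ a ha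
  have : D ⊔ E ≤ MulAction.stabilizer P v := sup_le hD hE
  exact this ha

theorem mem_fixV_cj {g : P} {D : Subgroup P} {v : V} : v ∈ fixV (cj g D) ↔ g⁻¹ • v ∈ fixV (V := V) D := by
  constructor
  · intro h a ha
    have h1 := h (g * a * g⁻¹) (conj_mem_cj.2 ha)
    rw [mul_smul, mul_smul] at h1
    rw [← inv_smul_smul g (a • g⁻¹ • v), h1]
  · intro h a ha
    have h1 := h _ (mem_cj.1 ha)
    rw [mul_smul, mul_smul, smul_inv_smul] at h1
    exact smul_left_cancel g⁻¹ h1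

theorem smul_mem_fixV_cj {g : P} {D : Subgroup P} {v : V} (h : v ∈ fixV (V := V) D) :
    g • v ∈ fixV (V := V) (cj g D) := by rw [mem_fixV_cj, inv_smul_smul]; exact h

theorem fixV_subgroupOf {L D : Subgroup P} (h : D ≤ L) :
    fixV (V := V) (D.subgroupOf L) = fixV (V := V) D := by
  ext v
  exact ⟨fun hv a ha => hv ⟨a, h ha⟩ ha, fun hv a ha => hv (a : P) ha⟩

theorem mem_fixV_top_sub {L : Subgroup P} {v : V} :
    v ∈ fixV (V := V) (⊤ : Subgroup L) ↔ v ∈ fixV (V := V) L :=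
  ⟨fun hv a ha => hv ⟨a, ha⟩ trivial, fun hv a _ => hv (a : P) a.2⟩

variable (V) in
/-- The weight `|D| |C_V(D)|`. -/
noncomputable def wt (D : Subgroup P) : ℕ := Nat.card D * Nat.card (fixV (V := V) D)

theorem card_fixV_cj (g : P) (D : Subgroup P) :
    Nat.card (fixV (V := V) (cj g D)) = Nat.card (fixV (V := V) D) :=
  Nat.card_congr
    { toFun := fun v => ⟨g⁻¹ • (v : V), mem_fixV_cj.1 v.2⟩
      invFun := fun v => ⟨g • (v : V), smul_mem_fixV_cj v.2⟩
      left_inv := fun v => Subtype.ext (smul_inv_smul g (v : V))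
      right_inv := fun v => Subtype.ext (inv_smul_smul g (v : V)) }

theorem wt_cj (g : P) (D : Subgroup P) : wt V (cj g D) = wt V D := by
  rw [wt, wt, card_cj, card_fixV_cj]

theorem isPGroup_sup_normalizing [Finite P] {K L : Subgroup P} (hK : IsPGroup p K) (hL : IsPGroup p L)
    (h : L ≤ Nz K) : IsPGroup p (K ⊔ L : Subgroup P) := by
  rw [sup_comm]
  exact hL.to_sup_of_normal_right' hK h

variable (V) in
/-- Minimal offenders are quadratic and strictly heavier than their proper nontrivial subgroups. -/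
structure Extremal (A : Subgroup P) : Prop where
  quad : ∀ a ∈ A, ∀ b ∈ A, ∀ v : V, b • (a • v - v) = a • v - v
  off : Nat.card V ≤ wt V A
  minimal : ∀ A₀ : Subgroup P, A₀ ≤ A → A₀ ≠ ⊥ → A₀ ≠ A → wt V A₀ < wt V A

theorem Extremal.cj {A : Subgroup P} (h : Extremal V A) (g : P) : Extremal V (cj g A) := by
  refine ⟨fun a ha b hb v => ?_, by rw [wt_cj]; exact h.off, fun A₀ hle h0 hne => ?_⟩
  · have := congrArg (g • ·) (h.quad _ (mem_cj.1 ha) _ (mem_cj.1 hb) (g⁻¹ • v))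
    simp only [smul_sub, ← mul_smul] at this ⊢
    simpa [mul_assoc] using this
  · rw [wt_cj, ← wt_cj g⁻¹ A₀]
    exact h.minimal _ (cj_le_iff.2 (by rwa [inv_inv])) (cj_ne_bot h0) fun he =>
      hne (by rw [← he, cj_cj_inv])

variable (V) in
/-- A faithful module, a unique maximal subgroup over a Sylow subgroup, trivial core, moved point. -/
structure Hyp₀ (p : ℕ) (T : Sylow p P) (M : Subgroup P) : Prop where
  faith : ∀ g : P, (∀ v : V, g • v = v) → g = 1
  exp : ∀ v : V, p • v = 0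
  ne : (T : Subgroup P) ≠ ⊥
  TM : (T : Subgroup P) ≤ M
  Mne : M ≠ ⊤
  uniq : ∀ L : Subgroup P, L ≠ ⊤ → (T : Subgroup P) ≤ L → L ≤ M
  core : ∀ N : Subgroup P, N.Normal → IsPGroup p N → N = ⊥
  moved : ∃ z ∈ fixV (V := V) (T : Subgroup P), z ∉ fixV (V := V) (⊤ : Subgroup P)

namespace Hyp₀

variable {T : Sylow p P} {M : Subgroup P} (D : Hyp₀ V p T M) [Finite P] [Fact p.Prime]
include D

omit [Finite P] [Fact p.Prime] in
theorem Nz_ne_top {K : Subgroup P} (hK : IsPGroup p K) (h0 : K ≠ ⊥) : Nz K ≠ ⊤ := fun h =>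
  h0 (D.core K (Subgroup.normalizer_eq_top_iff.1 h) hK)

omit [Finite P] [Fact p.Prime] in
theorem Nz_le {K : Subgroup P} (hK : IsPGroup p K) (h0 : K ≠ ⊥) (h : (T : Subgroup P) ≤ Nz K) :
    Nz K ≤ M := D.uniq _ (D.Nz_ne_top hK h0) h

theorem exists_conj_le_M {U : Subgroup P} (hU : IsPGroup p U) (hUM : U ≤ M) :
    ∃ m ∈ M, U ≤ cj m (T : Subgroup P) := by
  obtain ⟨y, hy, hle⟩ := (IsSyl.sylow_inf D.TM).exists_conj_le hU hUM
  exact ⟨y⁻¹, inv_mem hy, le_cj_iff.2 (by rwa [inv_inv])⟩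

omit D in
theorem exists_conj_le {U : Subgroup P} (hU : IsPGroup p U) :
    ∃ a : P, U ≤ cj a (T : Subgroup P) := by
  obtain ⟨R, hR⟩ := hU.exists_le_sylow
  obtain ⟨a, ha⟩ := exists_cj_sylow T R
  exact ⟨a, ha ▸ hR⟩

theorem mem_M_of_cj_le {g : P} (h : cj g M ≤ M) : g ∈ M := by
  have h1 : cj g M = M := Subgroup.eq_of_le_of_card_ge h (card_cj g M).ge
  have h2 : Nz M ≤ M := by
    refine D.uniq _ (fun htop => ?_) (D.TM.trans Subgroup.le_normalizer)
    refine D.Mne (eq_top_iff.2 fun x _ => ?_)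
    obtain ⟨n, hn, y, -, hy, rfl⟩ := (isSyl_sylow T).frattini (N := M) le_top htop.ge
      (Subgroup.mem_top x)
    rw [inf_eq_left.2 D.TM] at hy
    exact mul_mem hn (D.Nz_le T.2 D.ne Subgroup.le_normalizer hy)
  exact h2 (mem_Nz.2 h1)

omit [Finite P] [Fact p.Prime] in
/-- Points fixed by the Sylow subgroup but not by the group have stabiliser in `M`. -/
theorem stab_le {u : V} (h1 : u ∈ fixV (V := V) (T : Subgroup P))
    (h2 : u ∉ fixV (V := V) (⊤ : Subgroup P)) {g : P} (h : g • u = u) : g ∈ M :=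
  D.uniq (MulAction.stabilizer P u)
    (fun he => h2 fun a _ => (he.ge (Subgroup.mem_top a) : a ∈ MulAction.stabilizer P u))
    (fun a ha => h1 a ha) h

/-- A pair of conjugates of `A` generating a group `L` outside `M` that carries the setting. -/
theorem exists_setting {A : Subgroup P} (hA : A ≤ (T : Subgroup P)) (hA0 : A ≠ ⊥)
    (hext : Extremal V A) :
    ∃ (g₀ : P) (L : Subgroup P) (TL : Sylow p L), cj g₀ A ≤ (T : Subgroup P) ∧ cj g₀ A ≤ L ∧
      ¬ L ≤ M ∧ LAE79.Setting V p ((cj g₀ A).subgroupOf L) (M.subgroupOf L) TL := by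
  classical
  set 𝒟 : Set (Subgroup P) := Set.range fun g : P => cj g A with h𝒟
  have hcl : ∀ (x : P), ∀ E ∈ 𝒟, cj x E ∈ 𝒟 := by
    rintro x _ ⟨g, rfl⟩; exact ⟨x * g, (cj_cj x g A).symm⟩
  let Δ : P → P → Set (Subgroup P) := fun a b =>
    {E ∈ 𝒟 | E ≤ cj a (T : Subgroup P) ∧ E ≤ cj b (T : Subgroup P)}
  obtain ⟨g, hg, hmax⟩ := Set.exists_max_image {g : P | g ∉ M} (fun g => (Δ 1 g).ncard)
    (Set.toFinite _) (Set.nonempty_def.2 (by
      by_contra h; push Not at h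
      exact D.Mne (eq_top_iff.2 fun x _ => by simpa using h x)))
  -- pairs with more common members have the same maximal subgroup
  have hkey : ∀ (a b : P) (S : Set (Subgroup P)), S ⊆ Δ a b → (Δ 1 g).ncard < S.ncard →
      a⁻¹ * b ∈ M := by
    intro a b S hS hlt
    by_contra hab
    have h1 : (fun E => cj a⁻¹ E) '' S ⊆ Δ 1 (a⁻¹ * b) := by
      rintro _ ⟨E, hE, rfl⟩
      obtain ⟨hE0, hEa, hEb⟩ := hS hE
      refine ⟨hcl _ _ hE0, ?_, ?_⟩
      · rw [cj_one, cj_le_iff, inv_inv]; exact hEa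
      · rw [← cj_cj]; exact cj_mono _ hEb
    have h2 := Set.ncard_le_ncard h1 (Set.toFinite _)
    rw [Set.ncard_image_of_injective _ fun X Y h => by
      simpa [cj_cj_inv] using congrArg (cj a) h] at h2
    exact absurd (hmax _ hab) (by omega)
  set K : Subgroup P := sSup (Δ 1 g) with hK
  have hKT : K ≤ (T : Subgroup P) := sSup_le fun E hE => by simpa [cj_one] using hE.2.1
  have hKg : K ≤ cj g (T : Subgroup P) := sSup_le fun E hE => hE.2.2
  -- growth inside the two Sylow subgroups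
  have hgrow : ∀ R : Subgroup P, IsPGroup p R → (∀ E ∈ Δ 1 g, E ≤ R) →
      (∃ E ∈ 𝒟, E ≤ R ∧ E ∉ Δ 1 g) → ∃ E ∈ 𝒟, E ≤ R ∧ E ∉ Δ 1 g ∧ E ≤ Nz K := by
    intro R hR hΔR hex
    by_contra hno
    push Not at hno
    set N₁ := R ⊓ Nz K with hN₁
    have hEN : ∀ E ∈ 𝒟, (E ≤ N₁ ↔ E ∈ Δ 1 g) := fun E hE =>
      ⟨fun h => by_contra fun hn => hno E hE (h.trans inf_le_left) hn (h.trans inf_le_right),
        fun h => le_inf (hΔR E h) ((le_sSup h).trans Subgroup.le_normalizer)⟩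
    have hN : R ⊓ Nz N₁ ≤ N₁ := by
      rintro x ⟨hxR, hx⟩
      refine ⟨hxR, mem_Nz.2 (Subgroup.eq_of_le_of_card_ge ?_ (card_cj x K).ge)⟩
      rw [cj_le_iff, hK]
      refine sSup_le fun E hE => cj_le_iff.1 ?_
      exact le_sSup ((hEN _ (hcl x E hE.1)).1
        ((cj_mono x ((hEN E hE.1).2 hE)).trans (mem_Nz.1 hx).le))
    rcases (inf_le_left : N₁ ≤ R).eq_or_lt with h | h
    · obtain ⟨E, hE, hER, hEn⟩ := hex
      exact hEn ((hEN E hE).1 (hER.trans h.ge))
    · exact absurd hN (not_le_of_gt (lt_normalizer_inf hR h))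
  -- the two Sylow subgroups contain more
  set DT : Set (Subgroup P) := {E ∈ 𝒟 | E ≤ (T : Subgroup P)} with hDT
  have himg : (fun E => cj g E) '' DT = {E ∈ 𝒟 | E ≤ cj g (T : Subgroup P)} := by
    ext E
    refine ⟨?_, fun h => ⟨cj g⁻¹ E, ⟨hcl _ _ h.1, ?_⟩, cj_cj_inv g E⟩⟩
    · rintro ⟨E', hE', rfl⟩; exact ⟨hcl _ _ hE'.1, cj_mono _ hE'.2⟩
    · rw [cj_le_iff, inv_inv]; exact h.2
  have hDTne : ¬ ∀ E ∈ DT, E ≤ cj g (T : Subgroup P) := by
    intro h
    have hsub : DT ⊆ {E ∈ 𝒟 | E ≤ cj g (T : Subgroup P)} := fun E hE => ⟨hE.1, h E hE⟩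
    have heq : DT = (fun E => cj g E) '' DT := by
      rw [himg]
      refine Set.eq_of_subset_of_ncard_le hsub ?_ (Set.toFinite _)
      rw [← himg]; exact Set.ncard_image_le (Set.toFinite _)
    set K' : Subgroup P := sSup DT
    have hK'T : K' ≤ (T : Subgroup P) := sSup_le fun E hE => hE.2
    have hK'0 : K' ≠ ⊥ := fun h0 => hA0 (le_bot_iff.1
      ((le_sSup (show A ∈ DT from ⟨⟨1, cj_one A⟩, hA⟩)).trans h0.le))
    have hinv : ∀ x : P, (∀ E ∈ DT, cj x E ∈ DT) → x ∈ Nz K' := fun x hx =>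
      mem_Nz.2 (Subgroup.eq_of_le_of_card_ge
        (cj_le_iff.2 (sSup_le fun E hE => cj_le_iff.1 (le_sSup (hx E hE)))) (card_cj x K').ge)
    refine hg (D.Nz_le (T.2.to_le hK'T) hK'0 (fun t ht => hinv t fun E hE =>
      ⟨hcl _ _ hE.1, (cj_mono t hE.2).trans (cj_eq_self_of_mem ht).le⟩) (hinv g fun E hE => ?_))
    rw [heq]; exact ⟨E, hE, rfl⟩
  push Not at hDTne
  obtain ⟨E₁, hE₁, hE₁g⟩ := hDTne
  obtain ⟨A', hA'𝒟, hA'T, hA'Δ, hA'K⟩ := hgrow (T : Subgroup P) T.2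
    (fun E hE => by simpa [cj_one] using hE.2.1) ⟨E₁, hE₁.1, hE₁.2, fun h => hE₁g h.2.2⟩
  obtain ⟨E₂, hE₂, hE₂T⟩ : ∃ E ∈ {E ∈ 𝒟 | E ≤ cj g (T : Subgroup P)}, ¬ E ≤ (T : Subgroup P) := by
    by_contra h
    push Not at h
    have hsub : {E ∈ 𝒟 | E ≤ cj g (T : Subgroup P)} ⊆ DT := fun E hE => ⟨hE.1, h E hE⟩
    have := Set.eq_of_subset_of_ncard_le hsub
      (by rw [← himg, Set.ncard_image_of_injective _ fun X Y hXY => by
        simpa [cj_inv_cj] using congrArg (cj g⁻¹) hXY]) (Set.toFinite _)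
    exact hE₁g ((this.symm ▸ hE₁ : E₁ ∈ {E ∈ 𝒟 | E ≤ cj g (T : Subgroup P)}).2)
  obtain ⟨D', hD'𝒟, hD'g, hD'Δ, hD'K⟩ := hgrow (cj g (T : Subgroup P)) (isPGroup_cj T.2 g)
    (fun E hE => hE.2.2) ⟨E₂, hE₂.1, hE₂.2, fun h => hE₂T (by simpa [cj_one] using h.2.1)⟩
  have hins : ∀ E, E ∉ Δ 1 g → (Δ 1 g).ncard < (insert E (Δ 1 g)).ncard := fun E hE => by
    rw [Set.ncard_insert_of_notMem hE (Set.toFinite _)]; omega
  have hsubΔ : ∀ (a b : P), K ≤ cj a (T : Subgroup P) → K ≤ cj b (T : Subgroup P) → ∀ E ∈ 𝒟,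
      E ≤ cj a (T : Subgroup P) → E ≤ cj b (T : Subgroup P) → insert E (Δ 1 g) ⊆ Δ a b := by
    rintro a b ha hb E hE hEa hEb X (rfl | hX)
    · exact ⟨hE, hEa, hEb⟩
    · exact ⟨hX.1, (le_sSup hX).trans ha, (le_sSup hX).trans hb⟩
  have hD'M : ¬ D' ≤ M := fun h => by
    obtain ⟨m, hm, hle⟩ := D.exists_conj_le_M ((isPGroup_cj T.2 g).to_le (sup_le hKg hD'g))
      (sup_le (hKT.trans D.TM) h)
    refine hg ?_
    simpa using mul_mem hm (hkey m g _
      (hsubΔ m g (le_sup_left.trans hle) hKg D' hD'𝒟 (le_sup_right.trans hle) hD'g) (hins _ hD'Δ))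
  have hconjM : ∀ h : P, h ∈ Nz K → cj h A' ≤ M → h ∈ M := by
    intro h hh hle
    have h1 : K ≤ cj h (T : Subgroup P) := (mem_Nz.1 hh).ge.trans (cj_mono h hKT)
    have h2 : cj h A' ∉ Δ 1 g := fun hc => hA'Δ (by
      have h3 : A' ≤ K := by
        rw [← cj_inv_cj h A', ← mem_Nz.1 (inv_mem hh)]
        exact cj_mono _ (le_sSup hc)
      exact ⟨hA'𝒟, by simpa [cj_one] using hA'T, h3.trans hKg⟩)
    obtain ⟨m, hm, hle'⟩ := D.exists_conj_le_M
      ((isPGroup_cj T.2 h).to_le (sup_le h1 (cj_mono h hA'T))) (sup_le (hKT.trans D.TM) hle)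
    simpa using mul_mem hm (hkey m h _
      (hsubΔ m h (le_sup_left.trans hle') h1 _ (hcl h _ hA'𝒟) (le_sup_right.trans hle')
        (cj_mono h hA'T)) (hins _ h2))
  have hnotP : ∀ h : P, h ∈ Nz K → IsPGroup p (A' ⊔ cj h A' : Subgroup P) → h ∈ M := by
    intro h hh hP
    have hle : (A' ⊔ cj h A' : Subgroup P) ≤ Nz K :=
      sup_le hA'K ((cj_mono h hA'K).trans (cj_eq_self_of_mem hh).le)
    obtain ⟨a, ha⟩ := exists_conj_le (T := T)
      (isPGroup_sup_normalizing (T.2.to_le hKT) hP hle)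
    refine hconjM h hh ((le_sup_right.trans (le_sup_right.trans ha)).trans ?_)
    have haM : (1 : P)⁻¹ * a ∈ M := hkey 1 a _
      (hsubΔ 1 a (by rw [cj_one]; exact hKT) (le_sup_left.trans ha) A' hA'𝒟
        (by rw [cj_one]; exact hA'T) (le_sup_left.trans (le_sup_right.trans ha))) (hins _ hA'Δ)
    rw [inv_one, one_mul] at haM
    exact (cj_mono a D.TM).trans (cj_eq_self_of_mem haM).le
  -- a least pair
  obtain ⟨h₀, ⟨hh₀, hh₀M⟩, hmin⟩ := Set.exists_min_image {h : P | h ∈ Nz K ∧ h ∉ M}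
    (fun h => Nat.card (A' ⊔ cj h A' : Subgroup P)) (Set.toFinite _) (Set.nonempty_def.2 (by
      obtain ⟨x, hx, hxM⟩ := SetLike.not_le_iff_exists.1 hD'M
      exact ⟨x, hD'K hx, hxM⟩))
  set L : Subgroup P := A' ⊔ cj h₀ A' with hL
  have hAL : A' ≤ L := le_sup_left
  have hLK : L ≤ Nz K := sup_le hA'K ((cj_mono _ hA'K).trans (cj_eq_self_of_mem hh₀).le)
  have hLM : ¬ L ≤ M := fun h => hh₀M (hconjM _ hh₀ (le_sup_right.trans h))
  have hsubM : ∀ X : Subgroup P, A' ≤ X → X ≤ L → X ≠ L → X ≤ M := by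
    intro X hAX hXL hne x hx
    by_contra hxM
    have hle : (A' ⊔ cj x A' : Subgroup P) ≤ X :=
      sup_le hAX ((cj_mono x hAX).trans (cj_eq_self_of_mem hx).le)
    exact hne (Subgroup.eq_of_le_of_card_ge hXL
      ((hmin x ⟨hLK (hXL hx), hxM⟩).trans (Subgroup.card_le_of_le hle)))
  obtain ⟨g₀, rfl⟩ := hA'𝒟
  obtain ⟨TL, hTL⟩ := ((T.2.to_le hA'T).comap_subtype (K := L)).exists_le_sylow
  set R : Subgroup P := (TL : Subgroup L).map L.subtype with hR
  have hRL : R ≤ L := Subgroup.map_subtype_le _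
  have hAR : cj g₀ A ≤ R := fun a ha => ⟨⟨a, hAL ha⟩, hTL ha, rfl⟩
  have hRp : IsPGroup p R := TL.2.map _
  have hRM : R ≤ M := hsubM R hAR hRL fun h => hh₀M (hnotP _ hh₀ (hL ▸ h ▸ hRp))
  have hTLM : (TL : Subgroup L) ≤ M.subgroupOf L := fun x hx => hRM ⟨x, hx, rfl⟩
  have hALM : (cj g₀ A).subgroupOf L ≤ M.subgroupOf L := fun x hx => D.TM (hA'T hx)
  have hmap : ∀ X : Subgroup L, (cj g₀ A).subgroupOf L ≤ X → X ≠ ⊤ → X ≤ M.subgroupOf L := by
    intro X hAX hne x hx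
    refine hsubM (X.map L.subtype) (fun a ha => ⟨⟨a, hAL ha⟩, hAX ha, rfl⟩)
      (Subgroup.map_subtype_le _) (fun h => hne ?_) ⟨x, hx, rfl⟩
    refine eq_top_iff.2 fun y _ => ?_
    obtain ⟨z, hz, hzy⟩ := (h.ge y.2 : (y : P) ∈ X.map L.subtype)
    exact Subtype.ext hzy ▸ hz
  have hMne' : M.subgroupOf L ≠ ⊤ := fun h => hLM (Subgroup.subgroupOf_eq_top.1 h)
  refine ⟨g₀, L, TL, hA'T, hAL, hLM, ?_⟩
  have hext' := hext.cj g₀
  exact
    { faith := fun a ha => Subtype.ext (D.faith a ha)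
      exp := D.exp
      le := hTL
      coatom := ⟨hMne', fun X hX => by_contra fun hne =>
        not_le_of_gt hX (hmap X (hALM.trans hX.le) hne)⟩
      TM := hTLM
      uniq := fun X hX hTX => hmap X (hTL.trans hTX) hX
      gen := fun x hx X hAX hxX => by
        by_contra hne
        refine hx (hconjM x (hLK x.2) ?_)
        intro y hy
        obtain ⟨a, ha, rfl⟩ := hy
        exact hmap X hAX hne (hxX ⟨a, hAL ha⟩ ha)
      quad := fun a ha b hb v => hext'.quad a ha b hb v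
      off := by
        rw [fixV_subgroupOf hAL, Nat.card_congr (Subgroup.subgroupOfEquivOfLe hAL).toEquiv]
        exact hext'.off
      minimal := fun A₀ hA₀ h0 hne => by
        have h1 : A₀.map L.subtype ≤ cj g₀ A := by rintro _ ⟨a, ha, rfl⟩; exact hA₀ ha
        have h2 : (A₀.map L.subtype).subgroupOf L = A₀ :=
          Subgroup.comap_map_eq_self_of_injective L.subtype_injective A₀
        have h3 : fixV (V := V) A₀ = fixV (V := V) (A₀.map L.subtype) := by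
          conv_lhs => rw [← h2]
          exact fixV_subgroupOf (Subgroup.map_subtype_le _)
        have := hext'.minimal _ h1
          (fun h => h0 ((Subgroup.map_eq_bot_iff_of_injective _ L.subtype_injective).1 h))
          (fun h => hne (by rw [← h2, h]))
        rw [wt, wt, ← h3, Subgroup.card_map_of_injective L.subtype_injective] at this
        rwa [fixV_subgroupOf hAL, Nat.card_congr (Subgroup.subgroupOfEquivOfLe hAL).toEquiv]
      moved := by
        obtain ⟨u, hu, hu'⟩ := D.moved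
        obtain ⟨m, hm, hle⟩ := D.exists_conj_le_M hRp hRM
        refine ⟨m • u, fun a ha => fixV_anti (V := V) hle (smul_mem_fixV_cj hu) (a : P) ⟨a, ha, rfl⟩,
          fun hfix => hLM fun l hl => ?_⟩
        have h1 : (m⁻¹ * l * m) • u = u := by
          rw [mul_smul, mul_smul, show l • m • u = m • u from hfix ⟨l, hl⟩ trivial, inv_smul_smul]
        have h2 := mul_mem (mul_mem hm (D.stab_le hu hu' h1)) (inv_mem hm)
        simpa [mul_assoc] using h2 }

end Hyp₀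

end Cfsg.Agent.FFMin
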