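import Mathlib

/-!
Duality for finite abelian groups of exponent `p`, and the nilpotent action of a `p`-group.
-/

set_option autoImplicit false

namespace Cfsg.Agent.FFMin

variable {p : ℕ} [hp : Fact p.Prime]

theorem card_hom_aux (W : Type*) [AddCommGroup W] [Module (ZMod p) W] [Finite W] :
    Nat.card (W →+ ZMod p) = Nat.card W := by
  rw [Nat.card_congr
    { toFun := fun f : W →+ ZMod p => (f.toZModLinearMap p : Module.Dual (ZMod p) W)
      invFun := fun f => f.toAddMonoidHom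
      left_inv := fun f => AddMonoidHom.ext fun _ => rfl
      right_inv := fun f => LinearMap.ext fun _ => rfl }]
  exact (Nat.card_congr (Module.finBasis (ZMod p) W).toDualEquiv.toEquiv).symm

theorem card_hom {W : Type*} [AddCommGroup W] [Finite W] (h : ∀ w : W, p • w = 0) :
    Nat.card (W →+ ZMod p) = Nat.card W :=
  @card_hom_aux p hp W _ (AddCommGroup.zmodModule h) _

/-- Homomorphisms to `ZMod p` vanishing on `X` and not at `w ∉ X`. -/
theorem exists_hom_ne_zero {W : Type*} [AddCommGroup W] [Finite W] (h : ∀ w : W, p • w = 0)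
    {X : AddSubgroup W} {w : W} (hw : w ∉ X) :
    ∃ f : W →+ ZMod p, (∀ x ∈ X, f x = 0) ∧ f w ≠ 0 := by
  have hq : ∀ q : W ⧸ X, p • q = 0 := fun q => by
    induction q using QuotientAddGroup.induction_on with
    | H u => rw [← QuotientAddGroup.mk_nsmul, h, QuotientAddGroup.mk_zero]
  letI : Module (ZMod p) (W ⧸ X) := AddCommGroup.zmodModule hq
  by_contra hno
  push Not at hno
  let b := Module.Basis.ofVectorSpace (ZMod p) (W ⧸ X)
  refine hw ((QuotientAddGroup.eq_zero_iff w).1 (b.forall_coord_eq_zero_iff.1 fun i => ?_))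
  exact hno ((b.coord i).toAddMonoidHom.comp (QuotientAddGroup.mk' X)) fun x hx => by
    rw [AddMonoidHom.comp_apply, QuotientAddGroup.mk'_apply, (QuotientAddGroup.eq_zero_iff x).2 hx,
      map_zero]

/-- `|ann X| |X| = |W|`. -/
theorem card_ann {W : Type*} [AddCommGroup W] [Finite W] (h : ∀ w : W, p • w = 0)
    (X : AddSubgroup W) :
    Nat.card {f : W →+ ZMod p // ∀ x ∈ X, f x = 0} * Nat.card X = Nat.card W := by
  have e : Nat.card {f : W →+ ZMod p // ∀ x ∈ X, f x = 0} = Nat.card ((W ⧸ X) →+ ZMod p) :=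
    Nat.card_congr
      { toFun := fun f => QuotientAddGroup.lift X f.1 fun x hx => f.2 x hx
        invFun := fun f => ⟨f.comp (QuotientAddGroup.mk' X), fun x hx => by
          rw [AddMonoidHom.comp_apply, QuotientAddGroup.mk'_apply,
            (QuotientAddGroup.eq_zero_iff x).2 hx, map_zero]⟩
        left_inv := fun f => Subtype.ext (AddMonoidHom.ext fun _ => rfl)
        right_inv := fun f => QuotientAddGroup.addMonoidHom_ext X (AddMonoidHom.ext fun _ => rfl) }
  rw [e, card_hom (fun q => by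
    induction q using QuotientAddGroup.induction_on with
    | H u => rw [← QuotientAddGroup.mk_nsmul, h, QuotientAddGroup.mk_zero])]
  exact (AddSubgroup.card_eq_card_quotient_mul_card_addSubgroup X).symm

/-- A `p`-group has no non-zero invariant subgroup `W` with `W = [W,R]`. -/
theorem eq_bot_of_le_commutator {R V : Type*} [Group R] [AddCommGroup V] [DistribMulAction R V]
    [Finite V] (hR : IsPGroup p R) (h : ∀ v : V, p • v = 0) {W : AddSubgroup V}
    (hinv : ∀ r : R, ∀ w ∈ W, r • w ∈ W)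
    (hle : W ≤ AddSubgroup.closure {x | ∃ r : R, ∃ w ∈ W, r • w - w = x}) : W = ⊥ := by
  by_contra hW
  have hexp : ∀ w : W, p • w = 0 := fun w => Subtype.ext (h w)
  obtain ⟨⟨w₀, hw₀⟩, hw₀'⟩ := (AddSubgroup.ne_bot_iff_exists_ne_zero.1 hW : ∃ w : W, w ≠ 0)
  let ρ : R → (W →+ W) := fun r => AddMonoidHom.mk' (fun w => ⟨r • (w : V), hinv r w w.2⟩)
    fun a b => Subtype.ext (smul_add r (a : V) (b : V))
  letI : MulAction R (W →+ ZMod p) :=
    { smul := fun r f => f.comp (ρ r⁻¹)
      one_smul := fun f => AddMonoidHom.ext fun w => congrArg f (Subtype.ext (by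
        show (1 : R)⁻¹ • (w : V) = w
        rw [inv_one, one_smul]))
      mul_smul := fun r s f => AddMonoidHom.ext fun w => congrArg f (Subtype.ext (by
        show (r * s)⁻¹ • (w : V) = s⁻¹ • r⁻¹ • (w : V)
        rw [mul_inv_rev, mul_smul])) }
  have hdvd : p ∣ Nat.card (W →+ ZMod p) := by
    rw [card_hom hexp]
    have h1 : addOrderOf (⟨w₀, hw₀⟩ : W) = p :=
      addOrderOf_eq_prime (hexp _) hw₀'
    rw [← h1]; exact addOrderOf_dvd_natCard _
  haveI : Finite (W →+ ZMod p) :=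
    Finite.of_injective (fun f => (f : W → ZMod p)) DFunLike.coe_injective
  obtain ⟨f, hf, hf0⟩ := hR.exists_fixed_point_of_prime_dvd_card_of_fixed_point (W →+ ZMod p) hdvd
    (a := (0 : W →+ ZMod p)) (fun r => AddMonoidHom.ext fun _ => rfl)
  refine hf0 (AddMonoidHom.ext fun w => ?_)
  have key : ∀ v ∈ AddSubgroup.closure {x | ∃ r : R, ∃ w ∈ W, r • w - w = x},
      ∃ hv : v ∈ W, f ⟨v, hv⟩ = 0 := by
    intro v hv
    induction hv using AddSubgroup.closure_induction with
    | mem x hx =>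
      obtain ⟨r, w, hw, rfl⟩ := hx
      refine ⟨sub_mem (hinv r w hw) hw, ?_⟩
      have h1 : f (ρ r⁻¹⁻¹ ⟨w, hw⟩) = f ⟨w, hw⟩ := DFunLike.congr_fun (hf r⁻¹) ⟨w, hw⟩
      have h2 : (⟨r • w - w, sub_mem (hinv r w hw) hw⟩ : W) = ρ r⁻¹⁻¹ ⟨w, hw⟩ - ⟨w, hw⟩ :=
        Subtype.ext (by show _ = r⁻¹⁻¹ • w - w; rw [inv_inv])
      rw [h2, map_sub, h1, sub_self]
    | zero => exact ⟨zero_mem _, map_zero f⟩
    | add x y _ _ hx hy =>
      obtain ⟨hx, hx'⟩ := hx; obtain ⟨hy, hy'⟩ := hy
      exact ⟨add_mem hx hy, (map_add f ⟨x, hx⟩ ⟨y, hy⟩).trans (by rw [hx', hy', add_zero])⟩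
    | neg x _ hx =>
      obtain ⟨hx, hx'⟩ := hx
      exact ⟨neg_mem hx, (map_neg f ⟨x, hx⟩).trans (by rw [hx', neg_zero])⟩
  obtain ⟨_, hv⟩ := key w (hle w.2)
  exact hv.symm ▸ rfl

end Cfsg.Agent.FFMin
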