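import Cfsg.Agent.FFMin.Root

/-!
Commuting minimal offenders are independent: their product is an offender with independent centres.
-/

set_option autoImplicit false

namespace Cfsg.Agent.FFMin

open Cfsg.Agent.Fusion Cfsg.Agent.CF
open LAE79 (fixV mem_fixV)

variable {P : Type*} [Group P] {V : Type*} [AddCommGroup V] [DistribMulAction P V] {p : ℕ}

theorem mem_cmV_cj {g : P} {A : Subgroup P} {x : V} :
    x ∈ cmV V (cj g A) ↔ g⁻¹ • x ∈ cmV V A := by
  have key : ∀ (g : P) (A : Subgroup P) (x : V), x ∈ cmV V A → g • x ∈ cmV V (cj g A) := by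
    intro g A x hx
    have h : cmV V A ≤ (cmV V (cj g A)).comap (DistribMulAction.toAddMonoidHom V g) := by
      refine cmV_le_iff.2 fun a ha v => ?_
      show g • (a • v - v) ∈ cmV V (cj g A)
      have := sub_mem_cmV (V := V) (conj_mem_cj (g := g).2 ha) (g • v)
      simpa [smul_sub, ← mul_smul, mul_assoc] using this
    exact h hx
  constructor
  · intro h
    have := key g⁻¹ _ _ h
    rwa [cj_inv_cj] at this
  · intro h
    have := key g _ _ h
    rwa [smul_inv_smul] at this

theorem smul_mem_cmV_cj {g : P} {A : Subgroup P} {x : V} (h : x ∈ cmV V A) :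
    g • x ∈ cmV V (cj g A) := mem_cmV_cj.2 (by rwa [inv_smul_smul])

theorem cmV_sup (A B : Subgroup P) : cmV V (A ⊔ B) ≤ cmV V A ⊔ cmV V B := by
  set W := cmV V A ⊔ cmV V B
  let X : Subgroup P :=
    { carrier := {g | ∀ v : V, g • v - v ∈ W}
      one_mem' := fun v => by rw [one_smul, sub_self]; exact zero_mem _
      mul_mem' := fun {a b} ha hb v => by
        have : (a * b) • v - v = (a • (b • v) - b • v) + (b • v - v) := by rw [mul_smul]; abel
        rw [this]; exact add_mem (ha _) (hb v)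
      inv_mem' := fun {a} ha v => by
        have := neg_mem (ha (a⁻¹ • v))
        rwa [smul_inv_smul, neg_sub] at this }
  have h : A ⊔ B ≤ X := sup_le (fun a ha v => AddSubgroup.mem_sup_left (sub_mem_cmV ha v))
    fun a ha v => AddSubgroup.mem_sup_right (sub_mem_cmV ha v)
  exact cmV_le_iff.2 fun a ha v => h ha v

theorem cmV_mono {A B : Subgroup P} (h : A ≤ B) : cmV V A ≤ cmV V B :=
  cmV_le_iff.2 fun _ ha v => sub_mem_cmV (h ha) v

theorem cmV_bot : cmV V (⊥ : Subgroup P) = ⊥ :=
  le_bot_iff.1 <| cmV_le_iff.2 fun a ha v => by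
    rw [Subgroup.mem_bot.1 ha, one_smul, sub_self]; exact zero_mem _

/-- Offenders with each centre in the other axis commute. -/
theorem commute_of_cross (hfaith : ∀ g : P, (∀ v : V, g • v = v) → g = 1) {A B : Subgroup P}
    (h1 : cmV V A ≤ fixV (V := V) B) (h2 : cmV V B ≤ fixV (V := V) A) :
    ∀ a ∈ A, ∀ b ∈ B, a * b = b * a := by
  intro a ha b hb
  refine (inv_mul_eq_one.1 (hfaith _ fun v => ?_)).symm
  rw [mul_smul, inv_smul_eq_iff, mul_smul, mul_smul]
  have e1 := h2 (sub_mem_cmV hb v) a ha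
  have e2 := h1 (sub_mem_cmV ha v) b hb
  rw [smul_sub] at e1 e2
  calc a • b • v = (a • b • v - a • v) + a • v := by abel
    _ = (b • v - v) + a • v := by rw [e1]
    _ = (a • v - v) + b • v := by abel
    _ = (b • a • v - b • v) + b • v := by rw [e2]
    _ = b • a • v := by abel

theorem comm_sup {A B : Subgroup P} (hA : IsMulCommutative A) (hB : IsMulCommutative B)
    (h : ∀ a ∈ A, ∀ b ∈ B, a * b = b * a) : IsMulCommutative (A ⊔ B : Subgroup P) := by
  rw [← Subgroup.le_centralizer_iff_isMulCommutative] at hA hB ⊢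
  refine sup_le ?_ ?_ <;> rw [Subgroup.le_centralizer_iff] <;> refine sup_le ?_ ?_
  · exact hA
  · exact fun b hb => Subgroup.mem_centralizer_iff.2 fun a ha => h a ha b hb
  · exact fun a ha => Subgroup.mem_centralizer_iff.2 fun b hb => (h a ha b hb).symm
  · exact hB

variable [Finite P] [Finite V]

omit [Finite V] in
theorem card_sup_mul_inf {A B : Subgroup P} (h : IsMulCommutative (A ⊔ B : Subgroup P)) :
    Nat.card (A ⊔ B : Subgroup P) * Nat.card (A ⊓ B : Subgroup P) =
      Nat.card A * Nat.card B := by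
  have h1 : Nat.card B * B.relIndex (A ⊔ B) = Nat.card (A ⊔ B : Subgroup P) := by
    rw [← Subgroup.relIndex_bot_left B, ← Subgroup.relIndex_bot_left (A ⊔ B)]
    exact Subgroup.relIndex_mul_relIndex _ _ _ bot_le le_sup_right
  have h2 : Nat.card (A ⊓ B : Subgroup P) * B.relIndex A = Nat.card A := by
    rw [← Subgroup.inf_relIndex_right B A, inf_comm B A, ← Subgroup.relIndex_bot_left A,
      ← Subgroup.relIndex_bot_left (A ⊓ B)]
    exact Subgroup.relIndex_mul_relIndex _ _ _ bot_le inf_le_left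
  haveI : (B.subgroupOf (A ⊔ B)).Normal := ⟨fun n hn g => by
    rw [h.1.1 g n, mul_inv_cancel_right]; exact hn⟩
  have h3 : B.relIndex (A ⊔ B) = B.relIndex A := by
    have := Subgroup.relIndex_sup_right (A.subgroupOf (A ⊔ B)) (B.subgroupOf (A ⊔ B))
    rw [← Subgroup.subgroupOf_sup le_sup_left le_sup_right, Subgroup.subgroupOf_self,
      Subgroup.relIndex_top_right] at this
    rw [Subgroup.relIndex_subgroupOf le_sup_left] at this
    exact this
  calc _ = Nat.card (A ⊓ B : Subgroup P) * B.relIndex A * Nat.card B := by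
        rw [← h1, h3]; ring
    _ = _ := by rw [h2]

/-- The product of the weights of commuting subgroups. -/
theorem wt_mul_le {A B : Subgroup P} (h : IsMulCommutative (A ⊔ B : Subgroup P)) :
    wt V A * wt V B ≤ wt V (A ⊔ B) * (Nat.card (A ⊓ B : Subgroup P) *
      Nat.card (fixV (V := V) A ⊔ fixV (V := V) B : AddSubgroup V)) := by
  have h1 := card_sup_mul_inf_le (fixV (V := V) A) (fixV (V := V) B)
  rw [← fixV_sup] at h1
  calc wt V A * wt V B = (Nat.card A * Nat.card B) *
        (Nat.card (fixV (V := V) A) * Nat.card (fixV (V := V) B)) := by unfold wt; ring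
    _ ≤ (Nat.card A * Nat.card B) * _ := Nat.mul_le_mul_left _ h1
    _ = _ := by rw [← card_sup_mul_inf h]; unfold wt; ring

variable [Fact p.Prime] {T : Sylow p P} {M : Subgroup P}

theorem Hyp₀.exists_root (D : Hyp₀ V p T M) (hp : p ≠ 2) {A : Subgroup P} (hA : Min V p A) :
    ∃ (F : Type) (_ : Field F) (_ : Fintype F), Nonempty (Root V F A) := by
  obtain ⟨a, ha⟩ := Hyp₀.exists_conj_le (T := T) hA.1.pg
  obtain ⟨g₀, L, z, -, -, F, i1, i2, ⟨R⟩⟩ :=
    exists_good hp D (hA.cj a⁻¹) (cj_le_iff.2 (by rwa [inv_inv]))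
  refine ⟨F, i1, i2, ⟨?_⟩⟩
  have := R.cj (a * g₀⁻¹)
  rwa [cj_cj, cj_cj, show a * g₀⁻¹ * g₀ * a⁻¹ = 1 by group, cj_one] at this

theorem Hyp₀.card_c_eq (D : Hyp₀ V p T M) (hp : p ≠ 2) {A : Subgroup P} (hA : Min V p A) :
    Nat.card (cmV V A) = Nat.card A := by
  obtain ⟨F, i1, i2, ⟨R⟩⟩ := D.exists_root hp hA
  rw [R.card_c, R.card_A]

omit [Fact p.Prime] in
theorem Min.one_lt_card {A : Subgroup P} (hA : Min V p A) : 1 < Nat.card A :=
  (Subgroup.one_lt_card_iff_ne_bot A).2 hA.1.ne

/-- Commuting minimal offenders: product offender, independent centres. -/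
theorem Hyp.indep (D : Hyp V p T M) (hp : p ≠ 2) (s : Finset (Subgroup P))
    (hmin : ∀ A ∈ s, Min V p A) (hcomm : ∀ A ∈ s, ∀ B ∈ s, ∀ a ∈ A, ∀ b ∈ B, a * b = b * a)
    (hcard : ∀ A ∈ s, ∀ B ∈ s, ∀ C ∈ s, A ≠ B → A ≠ C → B ≠ C →
      Nat.card A < Nat.card B * Nat.card C) :
    IsPGroup p (s.sup id : Subgroup P) ∧ IsMulCommutative (s.sup id : Subgroup P) ∧
      wt V (s.sup id) = Nat.card V ∧ Nat.card (s.sup id : Subgroup P) = ∏ A ∈ s, Nat.card A ∧
      Nat.card (cmV V (s.sup id : Subgroup P)) = ∏ A ∈ s, Nat.card A := by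
  classical
  suffices H : ∀ (n : ℕ) (s : Finset (Subgroup P)), s.card = n → (∀ A ∈ s, Min V p A) →
      (∀ A ∈ s, ∀ B ∈ s, ∀ a ∈ A, ∀ b ∈ B, a * b = b * a) →
      (∀ A ∈ s, ∀ B ∈ s, ∀ C ∈ s, A ≠ B → A ≠ C → B ≠ C →
        Nat.card A < Nat.card B * Nat.card C) →
      IsPGroup p (s.sup id : Subgroup P) ∧ IsMulCommutative (s.sup id : Subgroup P) ∧
      wt V (s.sup id) = Nat.card V ∧ Nat.card (s.sup id : Subgroup P) = ∏ A ∈ s, Nat.card A ∧
      Nat.card (cmV V (s.sup id : Subgroup P)) = ∏ A ∈ s, Nat.card A from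
    H _ s rfl hmin hcomm hcard
  intro n
  induction n using Nat.strong_induction_on with
  | _ n ih =>
  intro s hn hmin hcomm hcard
  rcases s.eq_empty_or_nonempty with rfl | ⟨B, hBs⟩
  · simp only [Finset.sup_empty, Finset.prod_empty]
    exact ⟨IsPGroup.of_bot, ⟨⟨fun a b => Subtype.ext (by rw [Subgroup.coe_mul, Subgroup.coe_mul, Subgroup.mem_bot.1 a.2, Subgroup.mem_bot.1 b.2])⟩⟩, wt_bot, Subgroup.card_bot,
      by rw [cmV_bot, AddSubgroup.card_bot]⟩
  set t := s.erase B with ht
  have hBt : B ∉ t := Finset.notMem_erase B s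
  have hts : t ⊆ s := Finset.erase_subset B s
  have hrec : ∀ u : Finset (Subgroup P), u ⊆ s → u.card < n →
      IsPGroup p (u.sup id : Subgroup P) ∧ IsMulCommutative (u.sup id : Subgroup P) ∧
      wt V (u.sup id) = Nat.card V ∧ Nat.card (u.sup id : Subgroup P) = ∏ A ∈ u, Nat.card A ∧
      Nat.card (cmV V (u.sup id : Subgroup P)) = ∏ A ∈ u, Nat.card A := fun u hu hlt =>
    ih _ hlt u rfl (fun A hA => hmin A (hu hA)) (fun A hA B hB => hcomm A (hu hA) B (hu hB))
      (fun A hA B hB C hC => hcard A (hu hA) B (hu hB) C (hu hC))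
  have htlt : t.card < n := hn ▸ Finset.card_erase_lt_of_mem hBs
  obtain ⟨hGp, hGc, hGw, hGn, hGm⟩ := hrec t hts htlt
  set G : Subgroup P := t.sup id with hG
  have hsG : s.sup id = B ⊔ G := by
    rw [← Finset.insert_erase hBs, Finset.sup_insert]; rfl
  have hBG : ∀ b ∈ B, ∀ g ∈ G, b * g = g * b := fun b hb g hg => by
    have : G ≤ Subgroup.centralizer ({b} : Set P) :=
      Finset.sup_le fun A hA a ha => Subgroup.mem_centralizer_singleton_iff.2
        (hcomm A (hts hA) B hBs a ha b hb)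
    exact (Subgroup.mem_centralizer_singleton_iff.1 (this hg)).symm
  have hXc := comm_sup (hmin B hBs).1.comm hGc hBG
  have hGN : G ≤ Nz B := fun g hg => by
    refine mem_Nz.2 (Subgroup.eq_of_le_of_card_ge ?_ (card_cj g B).ge)
    rintro _ ⟨b, hb, rfl⟩
    simpa [← hBG b hb g hg] using hb
  have hXp : IsPGroup p (B ⊔ G : Subgroup P) := isPGroup_sup_normalizing (hmin B hBs).1.pg hGp hGN
  -- the intersection is trivial
  have hinf : B ⊓ G = ⊥ := by
    by_contra hne
    have hle : B ≤ G := by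
      have h1 := wt_mul_le (V := V) hXc
      rw [(hmin B hBs).1.eq, hGw] at h1
      have h2 := D.wt_le hXp hXc
      have h3 : Nat.card (B ⊓ G : Subgroup P) *
          Nat.card (fixV (V := V) B ⊔ fixV (V := V) G : AddSubgroup V) ≤ wt V (B ⊓ G) :=
        Nat.mul_le_mul_left _ (AddSubgroup.card_le_of_le
          (sup_le (fixV_anti inf_le_left) (fixV_anti inf_le_right)))
      have hIc := comm_of_le hXc ((inf_le_left : B ⊓ G ≤ B).trans le_sup_left)
      have h4 : Nat.card V ≤ wt V (B ⊓ G) := Nat.le_of_mul_le_mul_left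
        (h1.trans ((Nat.mul_le_mul h2 h3))) Nat.card_pos
      have h5 := le_antisymm (D.wt_le ((hmin B hBs).1.pg.to_le inf_le_left) hIc) h4
      have := (hmin B hBs).2 _ inf_le_left ⟨(hmin B hBs).1.pg.to_le inf_le_left, hne, hIc, h5⟩
      exact this ▸ inf_le_right
    have htne : t.Nonempty := by
      by_contra h
      rw [Finset.not_nonempty_iff_eq_empty] at h
      rw [hG, h, Finset.sup_empty] at hne
      exact hne (inf_bot_eq B)
    have hAc : ∀ A ∈ t, cmV V A ≤ cmV V B := by
      intro A hA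
      set u := t.erase A with hu
      obtain ⟨hUp, hUc, hUw, hUn, -⟩ := hrec u ((Finset.erase_subset A t).trans hts)
        ((Finset.card_erase_lt_of_mem hA).trans htlt)
      obtain ⟨-, -, -, hIn, -⟩ := hrec (insert B u)
        (Finset.insert_subset hBs ((Finset.erase_subset A t).trans hts)) (by
          rw [Finset.card_insert_of_notMem fun h => hBt (Finset.mem_of_mem_erase h)]
          have := Finset.card_erase_add_one hA
          have := Finset.card_erase_add_one hBs
          rw [← ht] at this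
          omega)
      set G' : Subgroup P := u.sup id with hG'
      have hGA : G = A ⊔ G' := by
        rw [hG, ← Finset.insert_erase hA, Finset.sup_insert]; rfl
      have hG'G : G' ≤ G := hGA ▸ le_sup_right
      have hBG'c : IsMulCommutative (B ⊔ G' : Subgroup P) := comm_of_le hXc (sup_le_sup_left hG'G B)
      have hBU : B ⊓ G' = ⊥ := by
        refine Subgroup.card_eq_one.1 ?_
        have e := card_sup_mul_inf hBG'c
        rw [Finset.sup_insert, show (id B ⊔ G' : Subgroup P) = B ⊔ G' from rfl,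
          Finset.prod_insert fun h => hBt (Finset.mem_of_mem_erase h), ← hUn] at hIn
        rw [hIn] at e
        have hpos : 0 < Nat.card B * Nat.card G' := Nat.mul_pos Nat.card_pos Nat.card_pos
        exact (mul_eq_left₀ hpos.ne').1 e
      have hAGc : IsMulCommutative (A ⊔ G' : Subgroup P) := hGA ▸ hGc
      have hAU : A ⊓ G' = ⊥ := by
        refine Subgroup.card_eq_one.1 ?_
        have e := card_sup_mul_inf hAGc
        rw [← hGA, hGn, ← Finset.mul_prod_erase t (fun C => Nat.card C) hA, ← hu, ← hUn] at e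
        have hpos : 0 < Nat.card A * Nat.card G' := Nat.mul_pos Nat.card_pos Nat.card_pos
        exact (mul_eq_left₀ hpos.ne').1 e
      have hsum : fixV (V := V) A ⊔ fixV (V := V) G' = ⊤ := by
        refine AddSubgroup.eq_top_of_le_card _ ?_
        have h1 := wt_mul_le (V := V) hAGc
        rw [(hmin A (hts hA)).1.eq, hUw, hAU, Subgroup.card_bot, one_mul, ← hGA, hGw] at h1
        exact Nat.le_of_mul_le_mul_left h1 Nat.card_pos
      obtain ⟨FA, _, _, ⟨RA⟩⟩ := D.exists_root hp (hmin A (hts hA))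
      obtain ⟨⟨b, hb⟩, hb1⟩ := Subgroup.ne_bot_iff_exists_ne_one.1 (hmin B hBs).1.ne
      have hb1' : b ≠ 1 := fun h => hb1 (Subtype.ext h)
      haveI : (G'.subgroupOf G).Normal := ⟨fun n hn g => by
        rw [hGc.1.1 g n, mul_inv_cancel_right]; exact hn⟩
      obtain ⟨a, ha, g', hg', hab⟩ : ∃ a ∈ A, ∃ g' ∈ G', a * g' = b := by
        have hbG : (⟨b, hle hb⟩ : G) ∈ A.subgroupOf G ⊔ G'.subgroupOf G := by
          rw [← Subgroup.subgroupOf_sup (hGA ▸ le_sup_left) hG'G, ← hGA, Subgroup.subgroupOf_self]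
          trivial
        obtain ⟨a, ha, g', hg', he⟩ := Subgroup.mem_sup_of_normal_right.1 hbG
        exact ⟨a, ha, g', hg', congrArg Subtype.val he⟩
      have ha1 : a ≠ 1 := fun h => hb1' ((Subgroup.eq_bot_iff_forall _).1 hBU b
        ⟨hb, by rw [← hab, h, one_mul]; exact hg'⟩)
      intro x hx
      obtain ⟨v, rfl⟩ := RA.exists_disp ha ha1 hx
      obtain ⟨v₁, hv₁, v₂, hv₂, rfl⟩ :=
        AddSubgroup.mem_sup.1 (hsum ▸ AddSubgroup.mem_top v : v ∈ fixV (V := V) A ⊔ fixV G')
      have : a • (v₁ + v₂) - (v₁ + v₂) = b • v₂ - v₂ := by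
        rw [← hab, mul_smul, hv₂ g' hg', smul_add, hv₁ a ha]; abel
      rw [this]
      exact sub_mem_cmV hb v₂
    have hcG : cmV V G ≤ cmV V B := by
      refine cmV_le_iff.2 ?_
      let X : Subgroup P :=
        { carrier := {g | ∀ v : V, g • v - v ∈ cmV V B}
          one_mem' := fun v => by rw [one_smul, sub_self]; exact zero_mem _
          mul_mem' := fun {a b} ha hb v => by
            have : (a * b) • v - v = (a • (b • v) - b • v) + (b • v - v) := by rw [mul_smul]; abel
            rw [this]; exact add_mem (ha _) (hb v)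
          inv_mem' := fun {a} ha v => by
            have := neg_mem (ha (a⁻¹ • v))
            rwa [smul_inv_smul, neg_sub] at this }
      have : G ≤ X := Finset.sup_le fun A hA a ha v => hAc A hA (sub_mem_cmV ha v)
      exact fun a ha v => this ha v
    have hle' := AddSubgroup.card_le_of_le hcG
    rw [hGm, D.card_c_eq hp (hmin B hBs)] at hle'
    obtain ⟨A, hA⟩ := htne
    have hBA : B ≠ A := fun h => hBt (h ▸ hA)
    rcases (t.erase A).eq_empty_or_nonempty with he | ⟨C, hC⟩
    · have : G = A := by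
        rw [hG, ← Finset.insert_erase hA, Finset.sup_insert, he, Finset.sup_empty, sup_bot_eq]; rfl
      exact hBA ((hmin A (hts hA)).2 B (this ▸ hle) (hmin B hBs).1)
    · obtain ⟨hCA, hCt⟩ := Finset.mem_erase.1 hC
      have h2 : Nat.card A * Nat.card C ≤ ∏ E ∈ t, Nat.card E := by
        rw [← Finset.prod_pair (f := fun E : Subgroup P => Nat.card E) hCA.symm]
        exact Finset.prod_le_prod_of_subset_of_one_le' (Finset.insert_subset hA
          (Finset.singleton_subset_iff.2 hCt)) fun i hi _ => (hmin i (hts hi)).one_lt_card.le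
      have := hcard B hBs A (hts hA) C (hts hCt) hBA (fun h => hBt (h ▸ hCt)) hCA.symm
      omega
  rw [hsG]
  have hw : wt V (B ⊔ G) = Nat.card V := by
    refine le_antisymm (D.wt_le hXp hXc) (Nat.le_of_mul_le_mul_right ?_ (Nat.card_pos (α := V)))
    have h1 := wt_mul_le (V := V) hXc
    rw [(hmin B hBs).1.eq, hGw, hinf, Subgroup.card_bot, one_mul] at h1
    exact h1.trans (Nat.mul_le_mul_left _
      (AddSubgroup.card_le_card_addGroup _))
  have hn' : Nat.card (B ⊔ G : Subgroup P) = ∏ A ∈ s, Nat.card A := by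
    have e := card_sup_mul_inf hXc
    rw [hinf, Subgroup.card_bot, mul_one, hGn] at e
    rw [e, Finset.mul_prod_erase s (fun A => Nat.card A) hBs]
  refine ⟨hXp, hXc, hw, hn', le_antisymm ?_ (hn' ▸ D.card_le_cmV hXp hXc)⟩
  refine (AddSubgroup.card_le_of_le (cmV_sup B G)).trans ?_
  have h1 := card_sup_mul_inf_le (cmV V B) (cmV V G)
  have h2 : Nat.card (cmV V B ⊔ cmV V G : AddSubgroup V) ≤
      Nat.card (cmV V B) * Nat.card (cmV V G) := by
    have h3 := ((cmV V B).addSubgroupOf (cmV V B ⊔ cmV V G)).card_mul_index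
    rw [Nat.card_congr (AddSubgroup.addSubgroupOfEquivOfLe le_sup_left).toEquiv] at h3
    have h4 : ((cmV V B).addSubgroupOf (cmV V B ⊔ cmV V G)).index =
        (cmV V B).relIndex (cmV V G) := by
      rw [← AddSubgroup.relIndex_sup_right (cmV V G) (cmV V B), sup_comm]; rfl
    rw [← h3, h4]
    exact Nat.mul_le_mul_left _ (Nat.le_of_dvd Nat.card_pos
      (AddSubgroup.relIndex_dvd_card _ _))
  rwa [D.card_c_eq hp (hmin B hBs), hGm,
    Finset.mul_prod_erase s (fun A => Nat.card A) hBs] at h2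

end Cfsg.Agent.FFMin
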