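import Cfsg.Agent.FFMin.Indep
import Cfsg.Agent.FieldMaps.Additive

/-!
An offender in a Sylow subgroup normalises every minimal offender there and fixes its centre.
-/

set_option autoImplicit false

namespace Cfsg.Agent.FFMin

open Cfsg.Agent.Fusion Cfsg.Agent.CF
open LAE79 (fixV mem_fixV)

variable {P : Type*} [Group P] {V : Type*} [AddCommGroup V] [DistribMulAction P V] {p : ℕ}
variable [Finite P] [Finite V] [Fact p.Prime] {T : Sylow p P} {M : Subgroup P}

/-- In a `p`-group the translates of the centre of a minimal offender lie in its axis. -/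
theorem Hyp₀.smul_c_mem (D : Hyp₀ V p T M) (hp : p ≠ 2) {A R : Subgroup P} (hA : Min V p A)
    (hR : IsPGroup p R) (hAR : A ≤ R) {d : P} (hd : d ∈ R) {x : V} (hx : x ∈ cmV V A) :
    d • x ∈ fixV (V := V) A := by
  obtain ⟨F, _, _, ⟨RA⟩⟩ := D.exists_root hp hA
  by_contra hdx
  set S : Set V := {y | ∃ r ∈ R, ∃ u ∈ cmV V A, r • u = y} with hS
  set X := AddSubgroup.closure S with hX
  have hbig : ∀ y ∈ S, y ∈ AddSubgroup.closure {z | ∃ r : R, ∃ w ∈ X, r • w - w = z} := by
    rintro _ ⟨r, hr, u, hu, rfl⟩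
    obtain ⟨a, ha, he⟩ := RA.exists_elt hdx hu
    refine AddSubgroup.subset_closure ⟨⟨r * a * r⁻¹, mul_mem (mul_mem hr (hAR ha)) (inv_mem hr)⟩,
      r • d • x, AddSubgroup.subset_closure ⟨r * d, mul_mem hr hd, x, hx, mul_smul r d x⟩, ?_⟩
    show (r * a * r⁻¹) • r • d • x - r • d • x = r • u
    rw [← he, smul_sub, mul_smul, mul_smul, inv_smul_smul]
  have hinv : ∀ r : R, ∀ w ∈ X, r • w ∈ X := by
    intro r w hw
    have : X ≤ X.comap (DistribMulAction.toAddMonoidHom V (r : P)) := by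
      refine (AddSubgroup.closure_le _).2 ?_
      rintro _ ⟨r', hr', u, hu, rfl⟩
      exact AddSubgroup.subset_closure ⟨r * r', mul_mem r.2 hr', u, hu, mul_smul _ _ _⟩
    exact this hw
  have hbot := eq_bot_of_le_commutator (R := R) (p := p) hR D.exp hinv
    ((AddSubgroup.closure_le _).2 hbig)
  have h0 : d • x = 0 := by
    have : d • x ∈ X := AddSubgroup.subset_closure ⟨d, hd, x, hx, rfl⟩
    rwa [hbot, AddSubgroup.mem_bot] at this
  exact hdx (h0 ▸ zero_mem _)

/-- Conjugates inside a `p`-group commute. -/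
theorem Hyp₀.commute_cj (D : Hyp₀ V p T M) (hp : p ≠ 2) {A R : Subgroup P} (hA : Min V p A)
    (hR : IsPGroup p R) (hAR : A ≤ R) {d : P} (hd : d ∈ R) :
    ∀ a ∈ A, ∀ b ∈ cj d A, a * b = b * a := by
  refine commute_of_cross D.faith (fun x hx => ?_) fun x hx => ?_
  · rw [mem_fixV_cj]
    exact D.smul_c_mem hp hA hR hAR (inv_mem hd) hx
  · have h := mem_cmV_cj.1 hx
    rw [← smul_inv_smul d x]
    exact D.smul_c_mem hp hA hR hAR hd h

omit [Finite P] [Finite V] [Fact p.Prime] in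
theorem three_pow_gt (n : ℕ) : n * n < 3 ^ n := by
  induction n with
  | zero => norm_num
  | succ n ih =>
    rcases Nat.eq_zero_or_pos n with rfl | hn
    · norm_num
    rw [pow_succ]; nlinarith

open scoped Classical in
/-- An offender of the Sylow subgroup normalises `A` and fixes its centre. -/
theorem Hyp.normalise (D : Hyp V p T M) (hp : p ≠ 2) {A E : Subgroup P} (hA : Min V p A)
    (hAT : A ≤ (T : Subgroup P)) (hE : Off V p E) (hET : E ≤ (T : Subgroup P)) :
    ∀ d ∈ E, cj d A = A ∧ ∀ x ∈ cmV V A, d • x = x := by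
  classical
  haveI := hE.comm
  have hEc : ∀ a ∈ E, ∀ b ∈ E, a * b = b * a := fun a ha b hb =>
    congrArg Subtype.val (hE.comm.1.1 ⟨a, ha⟩ ⟨b, hb⟩)
  haveI := Fintype.ofFinite E
  set s : Finset (Subgroup P) := Finset.univ.image fun d : E => cj (d : P) A with hs
  have hmem : ∀ B, B ∈ s ↔ ∃ d ∈ E, cj d A = B := fun B => by simp [hs]
  have hAs : A ∈ s := (hmem A).2 ⟨1, E.one_mem, cj_one A⟩
  set m := s.card with hm
  set q := Nat.card A with hq
  have hsq : ∀ B ∈ s, Nat.card B = q := fun B hB => by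
    obtain ⟨d, -, rfl⟩ := (hmem B).1 hB; exact card_cj d A
  have hmin : ∀ B ∈ s, Min V p B := fun B hB => by
    obtain ⟨d, -, rfl⟩ := (hmem B).1 hB; exact hA.cj d
  have hcT : ∀ B ∈ s, B ≤ (T : Subgroup P) := fun B hB => by
    obtain ⟨d, hd, rfl⟩ := (hmem B).1 hB
    exact (cj_mono d hAT).trans (cj_eq_self_of_mem (hET hd)).le
  obtain ⟨hGp, hGc, -, -, hGm⟩ := D.indep hp s hmin (fun B hB C hC => by
    obtain ⟨d, hd, rfl⟩ := (hmem B).1 hB
    obtain ⟨e, he, rfl⟩ := (hmem C).1 hC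
    have := D.toHyp₀.commute_cj hp (hA.cj d) T.2 (hcT _ hB)
      (mul_mem (hET he) (inv_mem (hET hd)))
    rwa [cj_cj, inv_mul_cancel_right] at this) (fun B hB C hC E' hE' _ _ _ => by
    rw [hsq B hB, hsq C hC, hsq E' hE']
    exact lt_mul_of_one_lt_left Nat.card_pos hA.one_lt_card)
  rw [Finset.prod_congr rfl hsq, Finset.prod_const, ← hm] at hGm
  set W := cmV V (s.sup id : Subgroup P) with hW
  -- the sum map of the centres
  let Φ : ((B : s) → cmV V (B : Subgroup P)) →+ V :=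
    AddMonoidHom.mk' (fun f => ∑ B : s, (f B : V)) fun f g => by
      simp [Finset.sum_add_distrib]
  have hΦW : W ≤ Φ.range := by
    refine cmV_le_iff.2 ?_
    let X : Subgroup P :=
      { carrier := {g | ∀ v : V, g • v - v ∈ Φ.range}
        one_mem' := fun v => by rw [one_smul, sub_self]; exact zero_mem _
        mul_mem' := fun {a b} ha hb v => by
          have : (a * b) • v - v = (a • (b • v) - b • v) + (b • v - v) := by rw [mul_smul]; abel
          rw [this]; exact add_mem (ha _) (hb v)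
        inv_mem' := fun {a} ha v => by
          have := neg_mem (ha (a⁻¹ • v))
          rwa [smul_inv_smul, neg_sub] at this }
    have : (s.sup id : Subgroup P) ≤ X := Finset.sup_le fun B hB b hb v => by
      refine ⟨Pi.single (⟨B, hB⟩ : s) ⟨_, sub_mem_cmV (V := V) hb v⟩, ?_⟩
      show ∑ C : s, ((Pi.single (⟨B, hB⟩ : s) (⟨_, sub_mem_cmV (V := V) hb v⟩ : cmV V B) :
        (B : s) → cmV V (B : Subgroup P)) C : V) = _
      rw [Finset.sum_eq_single (⟨B, hB⟩ : s)]
      · rw [Pi.single_eq_same]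
      · exact fun C _ hC => by rw [Pi.single_eq_of_ne hC]; rfl
      · exact fun h => absurd (Finset.mem_univ _) h
    exact fun a ha v => this ha v
  have hΦle : Φ.range ≤ W := by
    rintro _ ⟨f, rfl⟩
    exact AddSubgroup.sum_mem _ fun B _ => cmV_mono (Finset.le_sup (f := id) B.2) (f B).2
  have hΦinj : Function.Injective Φ := by
    rw [← AddMonoidHom.ker_eq_bot_iff, ← AddSubgroup.card_eq_one]
    have h := Φ.ker.card_mul_index
    rw [AddSubgroup.index_ker, le_antisymm hΦle hΦW, hGm, Nat.card_pi] at h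
    rw [Finset.prod_congr rfl (fun B _ => (D.toHyp₀.card_c_eq hp (hmin _ B.2)).trans (hsq _ B.2)),
      Finset.prod_const, Finset.card_univ, Fintype.card_coe, ← hm] at h
    exact (mul_eq_right₀ (pow_pos Nat.card_pos m).ne').1 h
  obtain ⟨F, fF, ftF, ⟨R⟩⟩ := D.toHyp₀.exists_root hp hA
  haveI := R.charP D.exp
  -- the stabiliser and the kernels
  set EA : Subgroup P := E ⊓ Nz A with hEA
  set B₁ : Subgroup P := EA ⊓ LAE79.pointwiseV (cmV V A) with hB₁
  set B₀ : Subgroup P := E ⊓ LAE79.pointwiseV W with hB₀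
  have hB10 : B₁ ≤ B₀ := by
    rintro γ ⟨⟨hγE, -⟩, hγc⟩
    refine ⟨hγE, fun w hw => ?_⟩
    obtain ⟨f, rfl⟩ := hΦW hw
    show γ • ∑ B : s, (f B : V) = ∑ B : s, (f B : V)
    rw [Finset.smul_sum]
    refine Finset.sum_congr rfl fun B _ => ?_
    obtain ⟨d, hd, hB⟩ := (hmem _).1 B.2
    have h1 : d⁻¹ • (f B : V) ∈ cmV V A := mem_cmV_cj.1 (hB.symm ▸ (f B).2)
    have h2 := congrArg (d • ·) (hγc _ h1)
    simp only [← mul_smul, ← mul_assoc] at h2
    rwa [hEc d hd γ hγE, mul_inv_cancel_right, mul_inv_cancel, one_smul] at h2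
  -- orbit count
  have hcount : Nat.card E = m * Nat.card EA := by
    have h1 : Nat.card E = Nat.card (E ⧸ EA.subgroupOf E) * Nat.card EA := by
      rw [Subgroup.card_eq_card_quotient_mul_card_subgroup (EA.subgroupOf E),
        Nat.card_congr (Subgroup.subgroupOfEquivOfLe (inf_le_left : EA ≤ E)).toEquiv]
    rw [h1]
    congr 1
    rw [hm, ← Fintype.card_coe, ← Nat.card_eq_fintype_card]
    refine Nat.card_congr (Equiv.ofBijective (fun x : E ⧸ EA.subgroupOf E =>
      Quotient.liftOn' x (fun d : E => (⟨cj (d : P) A, (hmem _).2 ⟨d, d.2, rfl⟩⟩ : s))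
        fun a b hab => ?_) ⟨?_, ?_⟩)
    · rw [QuotientGroup.leftRel_apply] at hab
      have h2 : ((a⁻¹ * b : E) : P) ∈ Nz A := hab.2
      refine Subtype.ext ?_
      show cj (a : P) A = cj (b : P) A
      conv_lhs => rw [← mem_Nz.1 h2]
      rw [cj_cj]; simp
    · intro x y
      induction x using QuotientGroup.induction_on with
      | H a => induction y using QuotientGroup.induction_on with
        | H b =>
          intro h
          have h' : cj (a : P) A = cj (b : P) A := congrArg Subtype.val h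
          refine QuotientGroup.eq.2 ⟨(a⁻¹ * b).2, mem_Nz.2 ?_⟩
          show cj ((a : P)⁻¹ * (b : P)) A = A
          rw [← cj_cj, ← h', cj_inv_cj]
    · rintro ⟨B, hB⟩
      obtain ⟨d, hd, rfl⟩ := (hmem B).1 hB
      exact ⟨(⟨d, hd⟩ : E), rfl⟩
  -- the weight bound
  have hwb : Nat.card W * Nat.card B₀ ≤ Nat.card E *
      Nat.card (W ⊓ fixV (V := V) E : AddSubgroup V) := by
    have h1 := D.toHyp₀.wt_le (hE.pg.to_le (inf_le_left : B₀ ≤ E)) (comm_of_le hE.comm inf_le_left)
    have h2 : Nat.card (W ⊔ fixV (V := V) E : AddSubgroup V) ≤ Nat.card (fixV (V := V) B₀) :=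
      AddSubgroup.card_le_of_le (sup_le (fun w hw a ha => ha.2 w hw) (fixV_anti inf_le_left))
    rw [← hE.eq] at h1
    unfold wt at h1
    refine Nat.le_of_mul_le_mul_right (?_ : _ * Nat.card (fixV (V := V) E) ≤ _) Nat.card_pos
    calc Nat.card W * Nat.card B₀ * Nat.card (fixV (V := V) E)
        = Nat.card B₀ * (Nat.card W * Nat.card (fixV (V := V) E)) := by ring
      _ ≤ Nat.card B₀ * (Nat.card (W ⊔ fixV (V := V) E : AddSubgroup V) *
          Nat.card (W ⊓ fixV (V := V) E : AddSubgroup V)) :=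
          Nat.mul_le_mul_left _ (card_sup_mul_inf_le _ _)
      _ ≤ Nat.card E * Nat.card (fixV (V := V) E) *
          Nat.card (W ⊓ fixV (V := V) E : AddSubgroup V) := by
        rw [← mul_assoc]
        exact Nat.mul_le_mul_right _ ((Nat.mul_le_mul_left _ h2).trans h1)
      _ = _ := by ring
  -- fixed points of the orbit
  set Xf : Set F := {x | ∀ γ ∈ EA, γ • R.μ x = R.μ x} with hXf
  have hf : Nat.card (W ⊓ fixV (V := V) E : AddSubgroup V) ≤ Nat.card Xf := by
    have hpre : ∀ w : (W ⊓ fixV (V := V) E : AddSubgroup V), ∃ f, Φ f = (w : V) :=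
      fun w => hΦW w.2.1
    choose pre hpre using hpre
    have hequiv : ∀ (w : (W ⊓ fixV (V := V) E : AddSubgroup V)) (d : P) (hd : d ∈ E) (B : s),
        (pre w ⟨cj d (B : Subgroup P), by
          obtain ⟨e, he, hB⟩ := (hmem _).1 B.2
          exact (hmem _).2 ⟨d * e, mul_mem hd he, by rw [← cj_cj, hB]⟩⟩ : V) =
          d • (pre w B : V) := by
      intro w d hd B
      have hperm : ∀ B : s, cj d⁻¹ (B : Subgroup P) ∈ s := fun B => by
        obtain ⟨e, he, hB⟩ := (hmem _).1 B.2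
        exact (hmem _).2 ⟨d⁻¹ * e, mul_mem (inv_mem hd) he, by rw [← cj_cj, hB]⟩
      have hperm' : ∀ B : s, cj d (B : Subgroup P) ∈ s := fun B => by
        obtain ⟨e, he, hB⟩ := (hmem _).1 B.2
        exact (hmem _).2 ⟨d * e, mul_mem hd he, by rw [← cj_cj, hB]⟩
      let π : s ≃ s :=
        { toFun := fun B => ⟨cj d (B : Subgroup P), hperm' B⟩
          invFun := fun B => ⟨cj d⁻¹ (B : Subgroup P), hperm B⟩
          left_inv := fun B => Subtype.ext (cj_inv_cj d _)
          right_inv := fun B => Subtype.ext (cj_cj_inv d _) }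
      let f' : (B : s) → cmV V (B : Subgroup P) := fun B =>
        ⟨d • (pre w (π.symm B) : V), by
          have h := smul_mem_cmV_cj (g := d) (pre w (π.symm B)).2
          have e : cj d ((π.symm B : s) : Subgroup P) = (B : Subgroup P) := cj_cj_inv d _
          rwa [e] at h⟩
      have hf' : Φ f' = Φ (pre w) := by
        rw [hpre]
        refine Eq.trans ?_ ((w.2.2) d hd)
        rw [← hpre w]
        show ∑ B : s, d • (pre w (π.symm B) : V) = d • ∑ B : s, (pre w B : V)
        rw [Finset.smul_sum]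
        exact Equiv.sum_comp π.symm (fun B => d • (pre w B : V))
      have h := congrArg Subtype.val (congrFun (hΦinj hf') (π B))
      show (pre w (π B) : V) = d • (pre w B : V)
      rw [← h]
      show d • (pre w (π.symm (π B)) : V) = _
      rw [π.symm_apply_apply]
    have hcμ : ∀ w, ∃ x, R.μ x = (pre w ⟨A, hAs⟩ : V) := fun w => R.cmV_eq.le (pre w ⟨A, hAs⟩).2
    choose xx hxx using hcμ
    have hxxX : ∀ w, xx w ∈ Xf := fun w γ hγ => by
      rw [hxx, ← hequiv w γ hγ.1 ⟨A, hAs⟩]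
      have e : (⟨cj γ A, (hmem _).2 ⟨γ, hγ.1, rfl⟩⟩ : s) = ⟨A, hAs⟩ := Subtype.ext (mem_Nz.1 hγ.2)
      exact congrArg (fun B : s => (pre w B : V)) e
    refine Nat.card_le_card_of_injective (fun w => (⟨xx w, hxxX w⟩ : Xf)) fun w w' h => ?_
    have h0 : (pre w ⟨A, hAs⟩ : V) = (pre w' ⟨A, hAs⟩ : V) := by
      rw [← hxx, ← hxx, show xx w = xx w' from congrArg Subtype.val h]
    refine Subtype.ext ?_
    rw [← hpre, ← hpre]
    congr 1
    funext B
    obtain ⟨d, hd, hB⟩ := (hmem _).1 B.2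
    have e : B = ⟨cj d A, (hmem _).2 ⟨d, hd, rfl⟩⟩ := Subtype.ext hB.symm
    refine Subtype.ext ?_
    rw [e]
    exact (hequiv w d hd ⟨A, hAs⟩).trans ((congrArg (d • ·) h0).trans (hequiv w' d hd ⟨A, hAs⟩).symm)
  -- the action of the stabiliser on the centre
  have hEAc : ∀ γ ∈ EA, ∀ x : F, ∃ y, R.μ y = γ • R.μ x := fun γ hγ x => by
    refine R.cmV_eq.le ?_
    have h := smul_mem_cmV_cj (g := γ) (R.cmV_eq.ge (⟨x, rfl⟩ : R.μ x ∈ R.μ.range))
    have e : cmV V (cj γ A) = cmV V A := by rw [mem_Nz.1 hγ.2]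
    exact e.le h
  have hfixA : ∀ γ ∈ EA, ∀ v, R.θ v = 0 → R.θ (γ • v) = 0 := fun γ hγ v hv => by
    rw [← R.mem_fix, ← mem_Nz.1 hγ.2]
    exact smul_mem_fixV_cj (R.mem_fix.2 hv)
  choose S₀ hS₀ using hEAc
  let S : EA → F → F := fun γ x => S₀ γ γ.2 x
  have hS : ∀ (γ : EA) x, R.μ (S γ x) = (γ : P) • R.μ x := fun γ x => hS₀ γ γ.2 x
  have hSadd : ∀ γ x y, S γ (x + y) = S γ x + S γ y := fun γ x y => R.μ_inj <| by
    simp only [map_add, hS, smul_add]
  have hSinj : ∀ γ, Function.Injective (S γ) := fun γ x y h => R.μ_inj <| by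
    have := congrArg R.μ h
    rwa [hS, hS, smul_left_cancel_iff] at this
  have hS0 : ∀ γ, S γ 0 = 0 := fun γ => R.μ_inj <| by simp [hS]
  have hS1 : ∀ γ, S γ 1 ≠ 0 := fun γ h => one_ne_zero (hSinj γ (h.trans (hS0 γ).symm))
  have hmult : ∀ γ x y, S γ (x * y) * S γ 1 = S γ x * S γ y := by
    intro γ
    have key : ∀ (a : P) (ha : a ∈ A) (v : V), S γ (R.lam a * R.θ v) =
        R.lam ((γ : P) * a * (γ : P)⁻¹) * R.θ ((γ : P) • v) := by
      intro a ha v
      have hga : (γ : P) * a * (γ : P)⁻¹ ∈ A := by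
        rw [← mem_Nz.1 γ.2.2]; exact conj_mem_cj.2 ha
      apply R.μ_inj
      rw [hS, ← R.disp ha v, ← R.disp hga, smul_sub, ← mul_smul, ← mul_smul, inv_mul_cancel_right]
    have hx : ∀ x, ∃ r, ∀ v, S γ (x * R.θ v) = r * R.θ ((γ : P) • v) := fun x => by
      obtain ⟨a, ha, rfl⟩ := R.exists_lam x
      exact ⟨_, key a ha⟩
    choose r hr using hx
    intro x y
    obtain ⟨v₁, hv₁⟩ := R.θ_surj 1
    obtain ⟨v, rfl⟩ := R.θ_surj y
    have e1 : S γ x = r x * R.θ ((γ : P) • v₁) := by rw [← hr, hv₁, mul_one]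
    have e2 : S γ (R.θ v) = r 1 * R.θ ((γ : P) • v) := by rw [← hr, one_mul]
    have e3 : S γ 1 = r 1 * R.θ ((γ : P) • v₁) := by rw [← hr, hv₁, one_mul]
    rw [hr, e1, e2, e3]; ring
  let σ : EA → (F ≃+* F) := fun γ => RingEquiv.ofBijective
    ({ toFun := fun x => S γ x / S γ 1
       map_one' := div_self (hS1 γ)
       map_mul' := fun x y => by
         rw [div_mul_div_comm, ← hmult γ x y, mul_div_mul_right _ _ (hS1 γ)]
       map_zero' := by rw [hS0, zero_div]
       map_add' := fun x y => by rw [hSadd, add_div] } : F →+* F)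
    (Finite.injective_iff_bijective.1 fun x y h => hSinj γ ((div_left_inj' (hS1 γ)).1 h))
  have hσ : ∀ γ x, σ γ x = S γ x / S γ 1 := fun _ _ => rfl
  have hscal : ∀ γ, σ γ = RingEquiv.refl F → ∀ x, S γ x = x := by
    intro γ h
    have hlin : ∀ x, S γ x = x * S γ 1 := fun x => by
      have := RingEquiv.congr_fun h x
      rw [hσ] at this
      exact (div_eq_iff (hS1 γ)).1 this
    have hpow : ∀ (n : ℕ), ((γ : P) ^ n) • R.μ 1 = R.μ (S γ 1 ^ n) := by
      intro n
      induction n with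
      | zero => simp
      | succ n ih => rw [pow_succ', mul_smul, ih, ← hS, hlin (S γ 1 ^ n), ← pow_succ]
    obtain ⟨k, hk⟩ := (IsPGroup.iff_orderOf.1 T.2) ⟨γ, hET γ.2.1⟩
    rw [Subgroup.orderOf_mk] at hk
    have h1 := hpow (p ^ k)
    rw [← hk, pow_orderOf_eq_one, one_smul, hk] at h1
    have := R.eq_one_of_pow_prime D.exp (R.μ_inj h1).symm
    exact fun x => by rw [hlin, this, mul_one]
  have hker : ∀ γ γ' : EA, σ γ = σ γ' → (γ : P)⁻¹ * γ' ∈ B₁ := by
    intro γ γ' h
    have hcomp : ∀ x, S γ' x = S γ (S (γ⁻¹ * γ') x) := fun x => R.μ_inj <| by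
      rw [hS, hS, hS, ← mul_smul, Subgroup.coe_mul, Subgroup.coe_inv, mul_inv_cancel_left]
    have h3 : σ (γ⁻¹ * γ') = RingEquiv.refl F := by
      refine RingEquiv.ext fun x => ?_
      have hx := RingEquiv.congr_fun h x
      rw [hσ, hσ, hcomp x, hcomp 1, div_eq_div_iff (hS1 γ) (by rw [← hcomp]; exact hS1 γ'),
        ← hmult] at hx
      have h5 := mul_right_cancel₀ (hS1 γ) hx
      rw [hσ]
      show _ = x
      rw [div_eq_iff (hS1 _)]
      exact (hSinj γ h5).symm
    refine ⟨(γ⁻¹ * γ').2, fun y hy => ?_⟩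
    obtain ⟨x, rfl⟩ := R.cmV_eq.le hy
    show ((γ⁻¹ * γ' : EA) : P) • R.μ x = R.μ x
    rw [← hS, hscal _ h3]
  obtain ⟨e, he, hee⟩ := FieldMaps.card_aut (F := F) p
  have hqe : q = p ^ e := by rw [hq, R.card_A, Nat.card_eq_fintype_card, he]
  have hB1le : Nat.card EA ≤ Nat.card B₁ * e := by
    have hle : B₁ ≤ EA := inf_le_left
    rw [← (B₁.subgroupOf EA).card_mul_index,
      Nat.card_congr (Subgroup.subgroupOfEquivOfLe hle).toEquiv]
    refine Nat.mul_le_mul_left _ ?_
    rw [Subgroup.index, ← hee, ← Nat.card_eq_fintype_card]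
    refine Nat.card_le_card_of_injective (fun x => σ x.out) fun x y h => ?_
    rw [← QuotientGroup.out_eq' x, ← QuotientGroup.out_eq' y, QuotientGroup.eq]
    exact hker _ _ h
  have hB1pos : 0 < Nat.card B₁ := Nat.card_pos
  have hmain : q ^ m * Nat.card B₁ ≤ m * Nat.card EA * Nat.card Xf := by
    rw [← hGm, ← hcount]
    exact ((Nat.mul_le_mul_left _ (Subgroup.card_le_of_le hB10)).trans hwb).trans
      (Nat.mul_le_mul_left _ hf)
  have hmpos : 0 < m := Finset.card_pos.2 ⟨A, hAs⟩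
  -- the stabiliser fixes the centre
  have htriv : ∀ γ ∈ EA, ∀ x ∈ cmV V A, γ • x = x := by
    intro γ hγ y hy
    obtain ⟨x₀, rfl⟩ := R.cmV_eq.le hy
    by_contra hne
    have hσne : σ ⟨γ, hγ⟩ ≠ RingEquiv.refl F := fun h => hne (by
      rw [← hS ⟨γ, hγ⟩, hscal _ h])
    have hX2 : Nat.card Xf * Nat.card Xf ≤ q := by
      rcases Set.subsingleton_or_nontrivial Xf with h | h
      · haveI : Subsingleton Xf := h.coe_sort
        have h1 : Nat.card Xf ≤ 1 := Finite.card_le_one_iff_subsingleton.2 inferInstance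
        exact (Nat.mul_le_mul h1 h1).trans Nat.card_pos
      · obtain ⟨x₁, hx₁, hx1⟩ : ∃ x ∈ Xf, x ≠ 0 := h.exists_ne 0
        set Kf : Set F := {x | σ ⟨γ, hγ⟩ x = x} with hKf
        have hK : ∀ x ∈ Xf, x / x₁ ∈ Kf := fun x hx => by
          have e1 : S ⟨γ, hγ⟩ x = x := R.μ_inj (by rw [hS]; exact hx γ hγ)
          have e2 : S ⟨γ, hγ⟩ x₁ = x₁ := R.μ_inj (by rw [hS]; exact hx₁ γ hγ)
          show σ ⟨γ, hγ⟩ (x / x₁) = x / x₁
          rw [map_div₀, hσ, hσ, e1, e2, div_div_div_cancel_right₀ (hS1 _)]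
        obtain ⟨ω, hω⟩ : ∃ ω, ω ∉ Kf := by
          by_contra hall
          push Not at hall
          exact hσne (RingEquiv.ext hall)
        have h1 : Nat.card Xf ≤ Nat.card Kf :=
          Nat.card_le_card_of_injective (fun x => (⟨_, hK x x.2⟩ : Kf)) fun x y hxy =>
            Subtype.ext ((div_left_inj' hx1).1 (congrArg Subtype.val hxy))
        refine (Nat.mul_le_mul h1 h1).trans ?_
        rw [hq, R.card_A, ← Nat.card_prod]
        refine Nat.card_le_card_of_injective (fun z : Kf × Kf => (z.1 : F) + z.2 * ω) ?_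
        rintro ⟨a, b⟩ ⟨a', b'⟩ hz
        have hz' : (a : F) + b * ω = a' + b' * ω := hz
        have hb : (b : F) = b' := by
          by_contra hbne
          refine hω ?_
          have : ω = ((a' : F) - a) / (b - b') := by
            rw [eq_div_iff (sub_ne_zero.2 hbne)]; linear_combination hz'
          show σ ⟨γ, hγ⟩ ω = ω
          rw [this, map_div₀, map_sub, map_sub, a.2, a'.2, b.2, b'.2]
        rw [hb] at hz'
        exact Prod.ext (Subtype.ext (add_right_cancel hz')) (Subtype.ext hb)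
    have h2 : q ^ m ≤ m * e * Nat.card Xf := Nat.le_of_mul_le_mul_right
      (hmain.trans (by
        calc m * Nat.card EA * Nat.card Xf ≤ m * (Nat.card B₁ * e) * Nat.card Xf :=
              Nat.mul_le_mul_right _ (Nat.mul_le_mul_left _ hB1le)
          _ = _ := by ring)) hB1pos
    have h3 : q ^ m * q ^ m ≤ m * e * (m * e) * q := by
      refine (Nat.mul_le_mul h2 h2).trans ?_
      calc m * e * Nat.card Xf * (m * e * Nat.card Xf)
          = m * e * (m * e) * (Nat.card Xf * Nat.card Xf) := by ring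
        _ ≤ _ := Nat.mul_le_mul_left _ hX2
    obtain ⟨k, hk⟩ : ∃ k, 2 * m = k + 1 := ⟨2 * m - 1, by omega⟩
    have h4 : q ^ k ≤ m * e * (m * e) := Nat.le_of_mul_le_mul_right
      (show q ^ k * q ≤ _ by rw [← pow_succ, ← hk, two_mul, pow_add]; exact h3) Nat.card_pos
    have h5 := three_pow_gt (m * e)
    have hp3 : 3 ≤ p := by
      have := (Fact.out : p.Prime).two_le
      omega
    have h6 : 3 ^ (m * e) ≤ q ^ k := by
      rw [hqe, ← pow_mul]
      exact (Nat.pow_le_pow_left hp3 _).trans (Nat.pow_le_pow_right (by omega) (by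
        rw [mul_comm m e]; exact Nat.mul_le_mul_left _ (by omega)))
    omega
  have hEB : EA = B₁ := le_antisymm (le_inf le_rfl fun γ hγ x hx => htriv γ hγ x hx) inf_le_left
  have hm1 : m = 1 := by
    have hXq : Nat.card Xf ≤ q := by
      rw [hq, R.card_A]; exact Nat.card_le_card_of_injective _ Subtype.val_injective
    have h2 : q ^ m ≤ m * q := Nat.le_of_mul_le_mul_right (hmain.trans (by
      rw [hEB]
      calc m * Nat.card B₁ * Nat.card Xf ≤ m * Nat.card B₁ * q := Nat.mul_le_mul_left _ hXq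
        _ = _ := by ring)) hB1pos
    obtain ⟨k, hk⟩ : ∃ k, m = k + 1 := ⟨m - 1, by omega⟩
    rcases Nat.eq_zero_or_pos k with rfl | hk0
    · exact hk
    exfalso
    have hq3 : 3 ≤ q := by
      have h1 := hA.one_lt_card
      rcases Nat.eq_zero_or_pos e with rfl | he0
      · rw [pow_zero] at hqe; omega
      · rw [hqe]
        have := (Fact.out : p.Prime).two_le
        calc 3 ≤ p ^ 1 := by rw [pow_one]; omega
          _ ≤ p ^ e := Nat.pow_le_pow_right (by omega) he0
    rw [hk, pow_succ] at h2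
    have h3 : q ^ k ≤ k + 1 := Nat.le_of_mul_le_mul_right h2 Nat.card_pos
    have h4 : 3 ^ k ≤ q ^ k := Nat.pow_le_pow_left hq3 k
    have h5 := three_pow_gt k
    rcases Nat.lt_or_ge k 2 with h | h
    · interval_cases k
      omega
    · nlinarith
  intro d hd
  obtain ⟨B, hB⟩ := Finset.card_eq_one.1 hm1
  have h1 : cj d A ∈ s := (hmem _).2 ⟨d, hd, rfl⟩
  rw [hB, Finset.mem_singleton] at h1
  have h2 := hAs
  rw [hB, Finset.mem_singleton] at h2
  have h3 : cj d A = A := h1.trans h2.symm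
  exact ⟨h3, htriv d ⟨hd, mem_Nz.2 h3⟩⟩

/-- Minimal offenders in the Sylow subgroup commute and fix each other's centres. -/
theorem Hyp.min_commute (D : Hyp V p T M) (hp : p ≠ 2) {A B : Subgroup P} (hA : Min V p A)
    (hB : Min V p B) (hAT : A ≤ (T : Subgroup P)) (hBT : B ≤ (T : Subgroup P)) :
    ∀ a ∈ A, ∀ b ∈ B, a * b = b * a :=
  commute_of_cross D.faith (fun x hx b hb => (D.normalise hp hA hAT hB.1 hBT b hb).2 x hx)
    fun x hx a ha => (D.normalise hp hB hBT hA.1 hAT a ha).2 x hx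

end Cfsg.Agent.FFMin
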