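import Cfsg.Agent.FFMin.Weight

/-!
Coordinates of a minimal offender: the transvection group of a line over a finite field, and the
group generated by a good pair.
-/

set_option autoImplicit false

namespace Cfsg.Agent.FFMin

open Cfsg.Agent.Fusion Cfsg.Agent.CF
open LAE79 (fixV mem_fixV)

variable {P : Type*} [Group P] {V : Type*} [AddCommGroup V] [DistribMulAction P V] {p : ℕ}

variable (V) in
/-- `A` acts as the full group of transvections `v ↦ v + μ (λ_a · θ v)`. -/
structure Root (F : Type) [Field F] (A : Subgroup P) where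
  θ : V →+ F
  μ : F →+ V
  lam : P → F
  θ_surj : Function.Surjective θ
  μ_inj : Function.Injective μ
  lam_bij : Set.BijOn lam (A : Set P) Set.univ
  θμ : ∀ x, θ (μ x) = 0
  act : ∀ a ∈ A, ∀ v, a • v = v + μ (lam a * θ v)
  inter : ∀ x, μ x ∈ fixV (V := V) (⊤ : Subgroup P) → x = 0

namespace Root

variable {F : Type} [Field F] {A : Subgroup P} (R : Root V F A)
include R

theorem lam_one : R.lam 1 = 0 := by
  obtain ⟨v, hv⟩ := R.θ_surj 1
  have h := R.act 1 A.one_mem v
  rw [one_smul, hv, mul_one, left_eq_add] at h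
  exact R.μ_inj (h.trans (map_zero _).symm)

theorem lam_eq_zero {a : P} (ha : a ∈ A) : R.lam a = 0 ↔ a = 1 :=
  ⟨fun h => R.lam_bij.injOn ha A.one_mem (h.trans R.lam_one.symm), fun h => h ▸ R.lam_one⟩

theorem exists_lam (x : F) : ∃ a ∈ A, R.lam a = x := R.lam_bij.surjOn (Set.mem_univ x)

theorem disp {a : P} (ha : a ∈ A) (v : V) : a • v - v = R.μ (R.lam a * R.θ v) := by
  rw [R.act a ha, add_sub_cancel_left]

theorem mem_fix {v : V} : v ∈ fixV (V := V) A ↔ R.θ v = 0 := by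
  constructor
  · intro h
    obtain ⟨a, ha, he⟩ := R.exists_lam 1
    have := R.act a ha v
    rw [h a ha, he, one_mul, left_eq_add] at this
    exact R.μ_inj (this.trans (map_zero _).symm)
  · intro h a ha
    rw [R.act a ha, h, mul_zero, map_zero, add_zero]

theorem fix_of_fixed {a : P} (ha : a ∈ A) (ha1 : a ≠ 1) {v : V} (h : a • v = v) :
    v ∈ fixV (V := V) A := by
  rw [R.mem_fix]
  have := R.act a ha v
  rw [h, left_eq_add] at this
  exact (mul_eq_zero.1 (R.μ_inj (this.trans (map_zero _).symm))).resolve_left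
    fun h0 => ha1 ((R.lam_eq_zero ha).1 h0)

theorem cmV_eq : cmV V A = R.μ.range := by
  refine le_antisymm (cmV_le_iff.2 fun a ha v => ⟨_, (R.disp ha v).symm⟩) ?_
  rintro _ ⟨x, rfl⟩
  obtain ⟨a, ha, he⟩ := R.exists_lam x
  obtain ⟨v, hv⟩ := R.θ_surj 1
  rw [← mul_one x, ← he, ← hv, ← R.disp ha v]
  exact sub_mem_cmV ha v

theorem c_le : cmV V A ≤ fixV (V := V) A := by
  rw [R.cmV_eq]; rintro _ ⟨x, rfl⟩; rw [R.mem_fix, R.θμ]

theorem inter_c {x : V} (hx : x ∈ cmV V A) (hz : x ∈ fixV (V := V) (⊤ : Subgroup P)) : x = 0 := by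
  rw [R.cmV_eq] at hx
  obtain ⟨y, rfl⟩ := hx
  rw [R.inter y hz, map_zero]

theorem card_A : Nat.card A = Nat.card F :=
  Nat.card_congr ((R.lam_bij.equiv R.lam).trans (Equiv.Set.univ F))

theorem card_c : Nat.card (cmV V A) = Nat.card F := by
  rw [R.cmV_eq]
  exact Nat.card_congr (AddMonoidHom.ofInjective R.μ_inj).toEquiv.symm

theorem card_V : Nat.card V = Nat.card F * Nat.card (fixV (V := V) A) := by
  have h : fixV (V := V) A = R.θ.ker := AddSubgroup.ext fun v => by
    rw [R.mem_fix, AddMonoidHom.mem_ker]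
  rw [h, AddSubgroup.card_eq_card_quotient_mul_card_addSubgroup R.θ.ker,
    Nat.card_congr (QuotientAddGroup.quotientKerEquivOfSurjective R.θ R.θ_surj).toEquiv]

theorem exists_disp {a : P} (ha : a ∈ A) (ha1 : a ≠ 1) {x : V} (hx : x ∈ cmV V A) :
    ∃ v, a • v - v = x := by
  rw [R.cmV_eq] at hx
  obtain ⟨y, rfl⟩ := hx
  obtain ⟨v, hv⟩ := R.θ_surj ((R.lam a)⁻¹ * y)
  refine ⟨v, ?_⟩
  rw [R.disp ha, hv, ← mul_assoc, mul_inv_cancel₀ fun h => ha1 ((R.lam_eq_zero ha).1 h), one_mul]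

theorem exists_elt {v : V} (hv : v ∉ fixV (V := V) A) {x : V} (hx : x ∈ cmV V A) :
    ∃ a ∈ A, a • v - v = x := by
  rw [R.cmV_eq] at hx
  obtain ⟨y, rfl⟩ := hx
  obtain ⟨a, ha, he⟩ := R.exists_lam (y * (R.θ v)⁻¹)
  refine ⟨a, ha, ?_⟩
  rw [R.disp ha, he, mul_assoc, inv_mul_cancel₀ fun h => hv (R.mem_fix.2 h), mul_one]

/-- Transport by conjugation. -/
def cj (g : P) : Root V F (cj g A) where
  θ := R.θ.comp (DistribMulAction.toAddMonoidHom V g⁻¹)
  μ := (DistribMulAction.toAddMonoidHom V g).comp R.μ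
  lam a := R.lam (g⁻¹ * a * g)
  θ_surj x := by
    obtain ⟨v, hv⟩ := R.θ_surj x
    exact ⟨g • v, by simpa using hv⟩
  μ_inj x y h := R.μ_inj (smul_left_cancel g h)
  lam_bij := by
    refine ⟨fun a _ => Set.mem_univ _, fun a ha b hb h => ?_, fun x _ => ?_⟩
    · have := R.lam_bij.injOn (mem_cj.1 ha) (mem_cj.1 hb) h
      simpa using this
    · obtain ⟨a, ha, he⟩ := R.exists_lam x
      exact ⟨g * a * g⁻¹, conj_mem_cj.2 ha, by
        show R.lam (g⁻¹ * (g * a * g⁻¹) * g) = x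
        simpa [mul_assoc] using he⟩
  θμ x := by simp [R.θμ]
  act a ha v := by
    have h := congrArg (g • ·) (R.act _ (mem_cj.1 ha) (g⁻¹ • v))
    simp only [smul_add, ← mul_smul] at h
    simpa [mul_assoc] using h
  inter x hx := R.inter x fun h hh => by
    have := hx (g * h * g⁻¹) trivial
    simp only [AddMonoidHom.comp_apply, DistribMulAction.toAddMonoidHom_apply, ← mul_smul] at this
    rw [inv_mul_cancel_right, mul_smul] at this
    exact smul_left_cancel g this

theorem charP [Fintype F] [Fact p.Prime] (hexp : ∀ v : V, p • v = 0) : CharP F p := by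
  exact (CharP.charP_iff_prime_eq_zero Fact.out).2 <| R.μ_inj <| by
    rw [map_zero, ← nsmul_one, map_nsmul, hexp]

theorem eq_one_of_pow_prime [Fintype F] [Fact p.Prime] (hexp : ∀ v : V, p • v = 0) {x : F} {k : ℕ}
    (h : x ^ p ^ k = 1) : x = 1 := by
  haveI := R.charP hexp
  induction k generalizing x with
  | zero => simpa using h
  | succ k ih =>
    refine frobenius_inj F p (ih (x := x ^ p) ?_ |>.trans (one_pow p).symm)
    rw [← pow_mul, ← pow_succ']; exact h

/-- A `p`-element normalising `A` that fixes the centre centralises `A` and `V / C_V(A)`. -/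
theorem of_fix_c [Fintype F] [Fact p.Prime] [Finite P] (hexp : ∀ v : V, p • v = 0) {g : P}
    (hgp : ∃ k, orderOf g = p ^ k) (hg : ∀ a ∈ A, g * a * g⁻¹ ∈ A)
    (hc : ∀ x ∈ cmV V A, g • x = x) :
    (∀ a ∈ A, g * a = a * g) ∧ ∀ v, g • v - v ∈ fixV (V := V) A := by
  have hμ : ∀ x, g • R.μ x = R.μ x := fun x => hc _ (R.cmV_eq.ge ⟨x, rfl⟩)
  have key : ∀ a ∈ A, ∀ v, R.lam a * R.θ v = R.lam (g * a * g⁻¹) * R.θ (g • v) := by
    intro a ha v
    apply R.μ_inj
    rw [← R.disp (hg a ha) (g • v), ← hμ, ← R.disp ha v, smul_sub]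
    congr 1
    rw [← mul_smul, ← mul_smul, inv_mul_cancel_right]
  obtain ⟨a₁, ha₁, he₁⟩ := R.exists_lam 1
  set r := R.lam (g * a₁ * g⁻¹) with hr
  have hr0 : r ≠ 0 := fun h => by
    obtain ⟨v, hv⟩ := R.θ_surj 1
    have := key a₁ ha₁ v
    rw [← hr, h, zero_mul, he₁, hv, one_mul] at this
    exact one_ne_zero this
  have hθ : ∀ v, R.θ (g • v) = r⁻¹ * R.θ v := fun v => by
    have := key a₁ ha₁ v
    rw [← hr, he₁, one_mul] at this
    rw [this, inv_mul_cancel_left₀ hr0]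
  have hpow : ∀ (n : ℕ) (v : V), R.θ (g ^ n • v) = r⁻¹ ^ n * R.θ v := by
    intro n
    induction n with
    | zero => intro v; simp
    | succ n ih => intro v; rw [pow_succ', mul_smul, hθ, ih, pow_succ']; ring
  obtain ⟨k, hk⟩ := hgp
  have hr1 : r⁻¹ = 1 := by
    obtain ⟨v, hv⟩ := R.θ_surj 1
    have := hpow (p ^ k) v
    rw [← hk, pow_orderOf_eq_one, one_smul, hv, mul_one, hk] at this
    exact R.eq_one_of_pow_prime hexp this.symm
  have hθ' : ∀ v, R.θ (g • v) = R.θ v := fun v => by rw [hθ, hr1, one_mul]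
  refine ⟨fun a ha => ?_, fun v => by rw [R.mem_fix, map_sub, hθ', sub_self]⟩
  obtain ⟨v, hv⟩ := R.θ_surj 1
  have h := key a ha v
  rw [hθ', hv, mul_one, mul_one] at h
  exact mul_inv_eq_iff_eq_mul.1 (R.lam_bij.injOn (hg a ha) ha h.symm)

end Root

variable (V) in
/-- The data of a good pair through `A`: the group `L`, its central involution `z`. -/
structure Good (p : ℕ) (A L M : Subgroup P) (z : P) : Prop where
  AL : A ≤ L
  LM : ¬ L ≤ M
  gen : ∃ x ∈ L, L = A ⊔ Fusion.cj x A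
  zL : z ∈ L
  zcomm : ∀ l ∈ L, z * l = l * z
  zc : ∀ x ∈ cmV V A, z • x = -x
  zfix : ∀ v : V, z • v = v → v ∈ fixV (V := V) L
  zH : ∀ v : V, z • v + v ∈ fixV (V := V) L
  line : ∀ n : V, z • n = -n → n ≠ 0 → ∃ l ∈ L, l⁻¹ • n ∈ cmV V A
  cH : ∀ x ∈ fixV (V := V) A, z • x = -x → x ∈ cmV V A
  MH : ∀ m ∈ L, m ∈ M → ∀ v ∈ fixV (V := V) A, m • v ∈ fixV (V := V) A
  sl2 : ∃ (F : Type) (_ : Field F) (_ : Fintype F), Fintype.card F = Nat.card A ∧
    Nonempty (L ≃* Matrix.SpecialLinearGroup (Fin 2) F)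

open Matrix in
theorem exists_mulVec_eq {F : Type*} [Field F] {e : Fin 2 → F} (he : e ≠ 0) :
    ∃ g : SpecialLinearGroup (Fin 2) F, (g : Matrix (Fin 2) (Fin 2) F).mulVec ![1, 0] = e := by
  by_cases h0 : e 0 = 0
  · have h1 : e 1 ≠ 0 := fun h => he (funext fun i => by fin_cases i <;> assumption)
    refine ⟨⟨!![0, -(e 1)⁻¹; e 1, 0], by simp [Matrix.det_fin_two, h1]⟩, ?_⟩
    ext i; fin_cases i <;> simp [Matrix.mulVec, dotProduct, Fin.sum_univ_two, h0]
  · refine ⟨⟨!![e 0, 0; e 1, (e 0)⁻¹], by simp [Matrix.det_fin_two, h0]⟩, ?_⟩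
    ext i; fin_cases i <;> simp [Matrix.mulVec, dotProduct, Fin.sum_univ_two]

open Matrix in
/-- The linear map of a matrix of determinant one. -/
def mv {F : Type*} [Field F] (g : SpecialLinearGroup (Fin 2) F) (r : Fin 2 → F) : Fin 2 → F :=
  (g : Matrix (Fin 2) (Fin 2) F).mulVec r

open Matrix in
theorem mv_mul {F : Type*} [Field F] (g h : SpecialLinearGroup (Fin 2) F) (r : Fin 2 → F) :
    mv (g * h) r = mv g (mv h r) := by
  show ((g : Matrix (Fin 2) (Fin 2) F) * (h : Matrix (Fin 2) (Fin 2) F)).mulVec r = _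
  rw [← Matrix.mulVec_mulVec]; rfl

theorem mv_one {F : Type*} [Field F] (r : Fin 2 → F) : mv 1 r = r := Matrix.one_mulVec r

theorem mv_inv_mv {F : Type*} [Field F] (g : Matrix.SpecialLinearGroup (Fin 2) F) (r : Fin 2 → F) :
    mv g⁻¹ (mv g r) = r := by rw [← mv_mul, inv_mul_cancel, mv_one]

theorem mv_mv_inv {F : Type*} [Field F] (g : Matrix.SpecialLinearGroup (Fin 2) F) (r : Fin 2 → F) :
    mv g (mv g⁻¹ r) = r := by rw [← mv_mul, mul_inv_cancel, mv_one]

theorem mv_sub {F : Type*} [Field F] (g : Matrix.SpecialLinearGroup (Fin 2) F) (r t : Fin 2 → F) :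
    mv g (r - t) = mv g r - mv g t := Matrix.mulVec_sub _ _ _

theorem mv_add {F : Type*} [Field F] (g : Matrix.SpecialLinearGroup (Fin 2) F) (r t : Fin 2 → F) :
    mv g (r + t) = mv g r + mv g t := Matrix.mulVec_add _ _ _

open Matrix in
set_option maxHeartbeats 800000 in
theorem exists_good [Finite P] [Finite V] [Fact p.Prime] (hp : p ≠ 2) {T : Sylow p P}
    {M : Subgroup P} (D : Hyp₀ V p T M) {A : Subgroup P} (hA : Min V p A)
    (hAT : A ≤ (T : Subgroup P)) :
    ∃ (g₀ : P) (L : Subgroup P) (z : P), Fusion.cj g₀ A ≤ (T : Subgroup P) ∧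
      Good V p (Fusion.cj g₀ A) L M z ∧
      ∃ (F : Type) (_ : Field F) (_ : Fintype F), Nonempty (Root V F (Fusion.cj g₀ A)) := by
  classical
  obtain ⟨g₀, L, TL, hT, hAL, hLM, S⟩ := D.exists_setting hAT hA.1.ne (hA.extremal D)
  set A' := Fusion.cj g₀ A with hA'
  obtain ⟨F, fF, ftF, hcard, ⟨ρ, ψ, hψs, hψ0, hψ⟩, -⟩ := S.recognition
  set Z := fixV (V := V) (⊤ : Subgroup L) with hZ
  -- halving
  have hhalf : ∀ v : V, ((p + 1) / 2) • (v + v) = v := fun v => by
    have h2 : 2 * ((p + 1) / 2) = p + 1 := by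
      obtain ⟨k, hk⟩ := (Fact.out : p.Prime).odd_of_ne_two hp
      omega
    rw [← two_nsmul, ← mul_nsmul, h2, succ_nsmul, D.exp, zero_add]
  have hchar : (2 : F) ≠ 0 := fun h2 => by
    obtain ⟨v, hv⟩ := hψs ![1, 0]
    have h3 := congrArg ψ (hhalf v)
    rw [map_nsmul, map_add, hv, show (![1, 0] : Fin 2 → F) + ![1, 0] = 0 from by
      ext i; fin_cases i <;> simp [one_add_one_eq_two, h2], nsmul_zero] at h3
    exact one_ne_zero (congrFun h3 0).symm
  -- the central involution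
  let neg : SpecialLinearGroup (Fin 2) F := ⟨!![-1, 0; 0, -1], by simp [Matrix.det_fin_two]⟩
  have hneg : ∀ r : Fin 2 → F, (neg : Matrix (Fin 2) (Fin 2) F).mulVec r = -r := fun r => by
    ext i; fin_cases i <;> simp [neg, Matrix.mulVec, dotProduct, Fin.sum_univ_two]
  set zL : L := ρ.symm neg with hzL
  have hzψ : ∀ v : V, ψ (zL • v) = -ψ v := fun v => by
    rw [hψ, hzL, MulEquiv.apply_symm_apply, hneg]
  have hcomm : ∀ l : L, zL * l = l * zL := fun l => ρ.injective <| by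
    rw [map_mul, map_mul, hzL, MulEquiv.apply_symm_apply]
    refine Subtype.ext (Matrix.ext_iff_mulVec.2 fun r => ?_)
    show ((neg : Matrix (Fin 2) (Fin 2) F) * (ρ l : Matrix (Fin 2) (Fin 2) F)).mulVec r =
      ((ρ l : Matrix (Fin 2) (Fin 2) F) * (neg : Matrix (Fin 2) (Fin 2) F)).mulVec r
    rw [← Matrix.mulVec_mulVec, ← Matrix.mulVec_mulVec, hneg, hneg, Matrix.mulVec_neg]
  have hzz : ∀ v : V, zL • zL • v = v := fun v => by
    have : zL * zL = 1 := ρ.injective <| by
      rw [map_mul, map_one, hzL, MulEquiv.apply_symm_apply]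
      refine Subtype.ext (Matrix.ext_iff_mulVec.2 fun r => ?_)
      show ((neg : Matrix (Fin 2) (Fin 2) F) * (neg : Matrix (Fin 2) (Fin 2) F)).mulVec r =
        (1 : Matrix (Fin 2) (Fin 2) F).mulVec r
      rw [← Matrix.mulVec_mulVec, hneg, hneg, neg_neg, Matrix.one_mulVec]
    rw [← mul_smul, this]; exact one_smul L v
  have hfix : ∀ v : V, zL • v = v → v ∈ Z := fun v hv => by
    rw [← hψ0]
    have h1 := hzψ v
    rw [hv] at h1
    ext i
    have h2 := congrFun h1 i
    simp only [Pi.neg_apply] at h2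
    have h3 : (2 : F) * ψ v i = 0 := by linear_combination h2
    exact (mul_eq_zero.1 h3).resolve_left hchar
  have hsum : ∀ v : V, zL • v + v ∈ Z := fun v => hfix _ (by rw [smul_add, hzz, add_comm])
  have hanti : ∀ n : V, zL • n = -n → n ∈ Z → n = 0 := fun n hn hz => by
    have : n + n = 0 := by
      have h1 := hz zL trivial
      rw [hn] at h1
      exact neg_eq_iff_add_eq_zero.1 h1
    rw [← hhalf n, this, nsmul_zero]
  -- the section of `ψ`
  have hsec : ∀ r, ∃ n : V, zL • n = -n ∧ ψ n = r := fun r => by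
    obtain ⟨v, hv⟩ := hψs r
    refine ⟨((p + 1) / 2) • (v - zL • v), ?_, ?_⟩
    · rw [smul_comm, smul_sub, hzz, ← neg_sub v, neg_nsmul]
    · rw [map_nsmul, map_sub, hzψ, hv, sub_neg_eq_add, ← hv, ← map_add, ← map_nsmul, hhalf]
  choose s hs1 hs2 using hsec
  have huniq : ∀ n n' : V, zL • n = -n → zL • n' = -n' → ψ n = ψ n' → n = n' := fun n n' h h' he =>
    sub_eq_zero.1 (hanti _ (by rw [smul_sub, h, h']; abel) ((hψ0 _).1 (by rw [map_sub, he, sub_self])))
  -- adapted basis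
  obtain ⟨u₀, hu₀, hu₀'⟩ := S.exists_moved
  have he : ψ u₀ ≠ 0 := fun h => hu₀' ((hψ0 _).1 h)
  obtain ⟨g, hg⟩ := exists_mulVec_eq he
  have hg' : mv g ![1, 0] = ψ u₀ := hg
  have hψm : ∀ (l : L) (v : V), ψ (l • v) = mv (ρ l) (ψ v) := hψ
  let coord : V → Fin 2 → F := fun v => mv g⁻¹ (ψ v)
  let gm : (Fin 2 → F) → Fin 2 → F := fun r => mv g r
  have hcoordg : ∀ v, gm (coord v) = ψ v := fun v => mv_mv_inv g (ψ v)
  have hgcoord : ∀ v r, ψ v = gm r → coord v = r := fun v r h => by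
    show mv g⁻¹ (ψ v) = r
    rw [h]; exact mv_inv_mv g r
  set AL : Subgroup L := A'.subgroupOf L with hALdef
  let mat : L → SpecialLinearGroup (Fin 2) F := fun a => g⁻¹ * ρ a * g
  have hmat : ∀ a ∈ AL, ∀ r, mv (mat a) r =
      ![r 0 + (mat a : Matrix (Fin 2) (Fin 2) F) 0 1 * r 1, r 1] := by
    intro a ha r
    have h1 : mv (mat a) ![1, 0] = ![1, 0] := by
      simp only [mat, mv_mul]
      rw [hg', ← hψm, hu₀ a ha, ← hg', mv_inv_mv]
    have a0 := congrFun h1 0
    have a1 := congrFun h1 1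
    simp [mv, Matrix.mulVec, dotProduct, Fin.sum_univ_two] at a0 a1
    have d := (mat a).2
    rw [Matrix.det_fin_two, a0, a1, one_mul, mul_zero, sub_zero] at d
    ext i; fin_cases i <;> simp [mv, Matrix.mulVec, dotProduct, Fin.sum_univ_two, a0, a1, d]
  have hcoord_smul : ∀ a ∈ AL, ∀ v, coord (a • v) =
      ![coord v 0 + (mat a : Matrix (Fin 2) (Fin 2) F) 0 1 * coord v 1, coord v 1] := by
    intro a ha v
    rw [← hmat a ha]
    refine hgcoord _ _ ?_
    simp only [mat, gm, mv_mul]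
    rw [hψm, mv_mv_inv]
    exact congrArg _ (hcoordg v).symm
  have hfixA : ∀ v, v ∈ fixV (V := V) A' ↔ v ∈ fixV (V := V) AL := fun v => by
    rw [fixV_subgroupOf hAL]
  let lamL : L → F := fun a => (mat a : Matrix (Fin 2) (Fin 2) F) 0 1
  let lam : P → F := fun a => if h : a ∈ L then lamL ⟨a, h⟩ else 0
  let θ : V →+ F := AddMonoidHom.mk' (fun v => coord v 1) fun u v => by
    simp [coord, mv_add]
  let μ : F →+ V := AddMonoidHom.mk' (fun x => s (gm ![x, 0])) fun x y => by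
    refine huniq _ _ (hs1 _) (by rw [smul_add, hs1, hs1]; abel) ?_
    rw [map_add, hs2, hs2, hs2]
    simp only [gm]
    rw [← mv_add]
    congr 1
    ext i; fin_cases i <;> simp
  have hact : ∀ a ∈ AL, ∀ v, a • v = v + μ (lamL a * θ v) := by
    intro a ha v
    rw [← sub_eq_iff_eq_add']
    refine huniq _ _ ?_ (hs1 _) ?_
    · rw [smul_sub, ← mul_smul, hcomm, mul_smul, neg_sub]
      obtain ⟨u, hu, hv⟩ : ∃ u ∈ Z, zL • v = u - v := ⟨_, hsum v, by abel⟩
      rw [hv, smul_sub, hu a trivial]; abel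
    · show ψ (a • v - v) = ψ (μ _)
      rw [show ψ (μ (lamL a * θ v)) = gm ![lamL a * θ v, 0] from hs2 _, map_sub, ← hcoordg (a • v),
        ← hcoordg v, hcoord_smul a ha]
      simp only [gm, ← mv_sub]
      congr 1
      ext i; fin_cases i <;> simp [θ, lamL]
  have hinjlam : Set.InjOn lamL (AL : Set L) := fun a ha b hb h => by
    refine Subtype.ext (inv_mul_eq_one.1 (D.faith _ fun v => ?_)).symm
    rw [mul_smul, inv_smul_eq_iff]
    show a • v = b • v
    rw [hact a ha, hact b hb, h]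
  have hlamsurj : Set.SurjOn lamL (AL : Set L) Set.univ := by
    intro x _
    have hc' : Nat.card AL = Nat.card F := by rw [Nat.card_eq_fintype_card (α := F), hcard]
    obtain ⟨a, ha⟩ := ((Nat.bijective_iff_injective_and_card fun a : AL => lamL a).2
      ⟨fun a b h => Subtype.ext (hinjlam a.2 b.2 h), hc'⟩).2 x
    exact ⟨a, a.2, ha⟩
  have hμψ : ∀ x, coord (μ x) = ![x, 0] := fun x => hgcoord _ _ (hs2 _)
  have hlam : ∀ a (h : a ∈ A'), lam a = lamL ⟨a, hAL h⟩ := fun a h => dif_pos (hAL h)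
  have hL : ∀ v, v ∈ fixV (V := V) L ↔ v ∈ Z := fun v => mem_fixV_top_sub.symm
  let R : Root V F A' :=
    { θ := θ, μ := μ, lam := lam
      θ_surj := fun x => ⟨s (gm ![0, x]), by
        show coord _ 1 = x
        rw [hgcoord _ _ (hs2 _)]; rfl⟩
      μ_inj := fun x y h => by
        have := congrArg coord h
        rw [hμψ, hμψ] at this
        exact congrFun this 0
      lam_bij := ⟨fun _ _ => Set.mem_univ _, fun a ha b hb h => by
          rw [hlam a ha, hlam b hb] at h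
          exact congrArg Subtype.val (hinjlam (x₁ := ⟨a, hAL ha⟩) (x₂ := ⟨b, hAL hb⟩) ha hb h),
        fun x _ => by
          obtain ⟨a, ha, he⟩ := hlamsurj (Set.mem_univ x)
          exact ⟨a, ha, by rw [hlam (a : P) ha]; exact he⟩⟩
      θμ := fun x => by show coord (μ x) 1 = 0; rw [hμψ]; rfl
      act := fun a ha v => by rw [hlam a ha]; exact hact ⟨a, hAL ha⟩ ha v
      inter := fun x hx => by
        have h := congrFun (hμψ x) 0
        have hz : μ x ∈ Z := fun l _ => hx (l : P) trivial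
        rw [show coord (μ x) = 0 from hgcoord _ _ (((hψ0 _).2 hz).trans (Matrix.mulVec_zero _).symm : ψ (μ x) = gm 0)]
          at h
        exact h.symm }
  obtain ⟨y, hy⟩ := S.exists_notMem
  refine ⟨g₀, L, zL, hT, ?_, F, fF, ftF, ⟨R⟩⟩
  exact
    { AL := hAL
      LM := hLM
      gen := by
        refine ⟨y, y.2, le_antisymm ?_ (sup_le hAL ((cj_mono _ hAL).trans (cj_eq_self_of_mem y.2).le))⟩
        have h1 := S.gen y hy ((A' ⊔ Fusion.cj (y : P) A').subgroupOf L)
          (fun a ha => Subgroup.mem_sup_left ha)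
          (fun a ha => Subgroup.mem_sup_right (conj_mem_cj.2 ha))
        exact Subgroup.subgroupOf_eq_top.1 h1
      zL := zL.2
      zcomm := fun l hl => congrArg Subtype.val (hcomm ⟨l, hl⟩)
      zc := fun x hx => by
        rw [R.cmV_eq] at hx; obtain ⟨w, rfl⟩ := hx; exact hs1 _
      zfix := fun v hv => (hL v).2 (hfix v hv)
      zH := fun v => (hL _).2 (hsum v)
      line := fun n hn hn0 => by
        have hψn : ψ n ≠ 0 := fun h => hn0 (hanti n hn ((hψ0 _).1 h))
        obtain ⟨g', hg''⟩ := exists_mulVec_eq hψn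
        have hn'' : mv g' ![1, 0] = ψ n := hg''
        refine ⟨(ρ.symm (g' * g⁻¹) : L), (ρ.symm (g' * g⁻¹)).2, ?_⟩
        set l : L := ρ.symm (g' * g⁻¹)
        have hn' : zL • n = -n := hn
        have hl : zL • (l⁻¹ • n) = -(l⁻¹ • n) := by
          rw [← mul_smul, hcomm, mul_smul, hn', smul_neg]
        have he : l⁻¹ • n = μ 1 := by
          refine huniq _ _ hl (hs1 _) ?_
          rw [show ψ (μ 1) = gm ![1, 0] from hs2 _, hψm, map_inv, MulEquiv.apply_symm_apply,
            _root_.mul_inv_rev, inv_inv, mv_mul, ← hn'']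
          simp only [gm, mv_inv_mv]
        show l⁻¹ • n ∈ cmV V A'
        rw [he, R.cmV_eq]
        exact ⟨1, rfl⟩
      cH := fun x hx hn => by
        rw [R.cmV_eq]
        refine ⟨coord x 0, huniq _ _ (hs1 _) hn ?_⟩
        rw [show ψ (μ (coord x 0)) = gm ![coord x 0, 0] from hs2 _, ← hcoordg x]
        congr 1
        have := R.mem_fix.1 hx
        ext i; fin_cases i
        · rfl
        · exact this.symm
      MH := fun m hm hmM v hv =>
        (hfixA _).2 (S.M_le_stab ⟨m, hm⟩ hmM v ((hfixA v).1 hv))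
      sl2 := ⟨F, fF, ftF, by
        rw [hcard, Nat.card_congr (Subgroup.subgroupOfEquivOfLe hAL).toEquiv], ⟨ρ⟩⟩ }

end Cfsg.Agent.FFMin
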