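import Cfsg.Agent.FFMin.Basic
import Cfsg.Agent.FFMin.Dual
import Cfsg.Agent.LocEven.Chermak.Weight
import Cfsg.Agent.LAE79.OffenderField

/-!
No abelian `p`-subgroup is heavier than the module; heaviest minimal ones are quadratic; dual bound.
-/

set_option autoImplicit false

namespace Cfsg.Agent.FFMin

open Cfsg.Agent.Fusion Cfsg.Agent.CF
open LAE79 (fixV mem_fixV)

variable {P : Type*} [Group P] {V : Type*} [AddCommGroup V] [DistribMulAction P V] {p : ℕ}
variable [Finite P] [Finite V] [Fact p.Prime]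

theorem wt_bot : wt V (⊥ : Subgroup P) = Nat.card V := by
  rw [wt, fixV_bot, Subgroup.card_bot, AddSubgroup.card_top, one_mul]

omit [Fact p.Prime] in
theorem card_sup_mul_inf_le (X Y : AddSubgroup V) :
    Nat.card X * Nat.card Y ≤ Nat.card (X ⊔ Y : AddSubgroup V) * Nat.card (X ⊓ Y : AddSubgroup V) :=
  LocEven.Chermak.card_add_mul_le X Y

/-- An abelian subgroup heavier than all its other non-trivial subgroups is quadratic. -/
theorem extremal_of_max (hfaith : ∀ g : P, (∀ v : V, g • v = v) → g = 1)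
    (hexp : ∀ v : V, p • v = 0) {A : Subgroup P} (hA : IsPGroup p A) (hA0 : A ≠ ⊥)
    (hc : IsMulCommutative A) (hoff : Nat.card V ≤ wt V A)
    (hmax : ∀ B : Subgroup P, B ≤ A → B ≠ ⊥ → B ≠ A → wt V B < wt V A) : Extremal V A := by
  classical
  refine ⟨?_, hoff, hmax⟩
  letI : CommGroup A := { (inferInstance : Group A) with mul_comm := hc.1.1 }
  let α : A →* AddMonoid.End V := (DistribMulAction.toAddMonoidEnd P V).comp A.subtype
  have hα : ∀ (a : A) (v : V), α a v = (a : P) • v := fun _ _ => rfl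
  have hfix : ∀ B : Subgroup A, LocEven.Chermak.fixA α B = fixV (V := V) (B.map A.subtype) := by
    intro B; ext v
    rw [LocEven.Chermak.mem_fixA]
    exact ⟨fun h a ha => by obtain ⟨b, hb, rfl⟩ := ha; exact h b hb, fun h b hb => h b ⟨b, hb, rfl⟩⟩
  have hwt : ∀ B : Subgroup A, LocEven.Chermak.wt α B = wt V (B.map A.subtype) := by
    intro B; rw [LocEven.Chermak.wt, wt, hfix, Subgroup.card_map_of_injective A.subtype_injective]
  have htop : (⊤ : Subgroup A).map A.subtype = A := by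
    rw [← MonoidHom.range_eq_map, A.range_subtype]
  have hle : ∀ B : Subgroup A, B ≠ ⊥ → B ≠ ⊤ →
      LocEven.Chermak.wt α B < LocEven.Chermak.wt α ⊤ := by
    intro B h0 h1
    rw [hwt, hwt, htop]
    refine hmax _ (Subgroup.map_subtype_le _)
      (fun h => h0 ((Subgroup.map_eq_bot_iff_of_injective _ A.subtype_injective).1 h))
      (fun h => h1 (Subgroup.map_injective A.subtype_injective (h.trans htop.symm)))
  have hbest : ∀ B, LocEven.Chermak.wt α B ≤ LocEven.Chermak.wt α ⊤ := by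
    intro B
    rcases eq_or_ne B ⊥ with rfl | h0
    · rw [hwt, hwt, htop, Subgroup.map_bot, wt_bot]; exact hoff
    · rcases eq_or_ne B ⊤ with rfl | h1
      exacts [le_rfl, (hle B h0 h1).le]
  obtain ⟨hbar, hspan⟩ := LocEven.Chermak.replacement hbest
  rcases eq_or_ne (LocEven.Chermak.bar α) ⊤ with h | h
  · intro a ha b hb v
    have h1 : (⟨b, hb⟩ : A) ∈ LocEven.Chermak.bar α := h ▸ Subgroup.mem_top _
    exact h1 ⟨a, ha⟩ v
  exfalso
  rcases eq_or_ne (LocEven.Chermak.bar α) ⊥ with h0 | h0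
  swap
  · exact (hle _ h0 h).ne hbar
  -- the span is everything, so the action is trivial
  rw [h0] at hspan
  have hfix0 : LocEven.Chermak.fixA α ⊥ = ⊤ := by rw [hfix, Subgroup.map_bot, fixV_bot]
  rw [hfix0] at hspan
  have hW : cmV V A = ⊥ := by
    refine eq_bot_of_le_commutator (p := p) hA hexp (W := cmV V A) ?_ ?_
    · intro r w hw
      have h1 : cmV V A ≤ (cmV V A).comap (DistribMulAction.toAddMonoidHom V (r : P)) := by
        refine cmV_le_iff.2 fun a ha v => ?_
        show (r : P) • (a • v - v) ∈ cmV V A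
        have := sub_mem_cmV (V := V) ((Subgroup.mul_mem_cancel_right A (inv_mem r.2)).2
          (mul_mem r.2 ha)) ((r : P) • v)
        simpa [smul_sub, ← mul_smul, mul_assoc] using this
      exact h1 hw
    · refine cmV_le_iff.2 fun a ha v => ?_
      obtain ⟨w, hw, f, hf, he⟩ := AddSubgroup.mem_sup.1 (hspan (AddSubgroup.mem_top v))
      have hw' : w ∈ cmV V A := by
        refine (AddSubgroup.closure_le _).2 ?_ hw
        rintro _ ⟨b, u, rfl⟩
        exact sub_mem_cmV b.2 u
      refine AddSubgroup.subset_closure ⟨⟨a, ha⟩, w, hw', ?_⟩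
      show a • w - w = a • v - v
      have hf' : a • f = f := LocEven.Chermak.mem_fixA.1 hf ⟨a, ha⟩ (Subgroup.mem_top _)
      rw [← he, smul_add, hf']; abel
  refine hA0 ((Subgroup.eq_bot_iff_forall A).2 fun a ha => hfaith a fun v => ?_)
  have h1 := sub_mem_cmV (V := V) ha v
  rw [hW, AddSubgroup.mem_bot] at h1
  exact sub_eq_zero.1 h1

namespace Hyp₀

variable {T : Sylow p P} {M : Subgroup P} (D : Hyp₀ V p T M)
include D

/-- No abelian `p`-subgroup is heavier than the module. -/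
theorem wt_le {A : Subgroup P} (hA : IsPGroup p A) (hc : IsMulCommutative A) :
    wt V A ≤ Nat.card V := by
  classical
  rcases eq_or_ne A ⊥ with rfl | hA0
  · rw [wt_bot]
  by_contra hgt
  push Not at hgt
  obtain ⟨B, ⟨hB, hBc, hB0⟩, hBmax⟩ := Set.exists_max_image
    {B : Subgroup P | IsPGroup p B ∧ IsMulCommutative B ∧ B ≠ ⊥} (fun B => wt V B) (Set.toFinite _)
    ⟨A, hA, hc, hA0⟩
  obtain ⟨E, ⟨hE, hEc, hE0, hEw⟩, hEmin⟩ := Set.exists_min_image
    {E : Subgroup P | IsPGroup p E ∧ IsMulCommutative E ∧ E ≠ ⊥ ∧ wt V E = wt V B}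
    (fun E => Nat.card E) (Set.toFinite _) ⟨B, hB, hBc, hB0, rfl⟩
  have hbig : Nat.card V < wt V E := by rw [hEw]; exact hgt.trans_le (hBmax A ⟨hA, hc, hA0⟩)
  have hext : Extremal V E := by
    refine extremal_of_max D.faith D.exp hE hE0 hEc hbig.le fun X hX h0 hne => ?_
    have hXc : IsMulCommutative X :=
      ⟨⟨fun a b => Subtype.ext (congrArg Subtype.val
        (hEc.1.1 ⟨a, hX a.2⟩ ⟨b, hX b.2⟩) :)⟩⟩
    refine lt_of_le_of_ne (hEw ▸ hBmax X ⟨hE.to_le hX, hXc, h0⟩) fun he => hne ?_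
    exact Subgroup.eq_of_le_of_card_ge hX (hEmin X ⟨hE.to_le hX, hXc, h0, he.trans hEw⟩)
  obtain ⟨a, ha⟩ := exists_conj_le (T := T) hE
  obtain ⟨g₀, L, TL, -, hL, -, hS⟩ := D.exists_setting (A := cj a⁻¹ E)
    (cj_le_iff.2 (by rwa [inv_inv])) (cj_ne_bot hE0) (hext.cj a⁻¹)
  have h2 := hS.card_eqs.2
  rw [fixV_subgroupOf hL, Nat.card_congr (Subgroup.subgroupOfEquivOfLe hL).toEquiv] at h2
  change Nat.card V = wt V (cj g₀ (cj a⁻¹ E)) at h2
  rw [wt_cj, wt_cj] at h2
  omega

end Hyp₀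

variable (V) in
/-- The hypotheses with the module generated by the translates of the fixed points. -/
structure Hyp (p : ℕ) (T : Sylow p P) (M : Subgroup P) : Prop extends Hyp₀ V p T M where
  span : AddSubgroup.closure
    {x | ∃ (g : P) (u : V), u ∈ fixV (V := V) (T : Subgroup P) ∧ g • u = x} = ⊤

theorem Hyp.cmV_top_not_le {T : Sylow p P} {M : Subgroup P} (D : Hyp V p T M) :
    ¬ cmV V (⊤ : Subgroup P) ≤ cmV V (T : Subgroup P) := by
  intro h
  have hgen : ∀ v : V, ∃ u ∈ fixV (V := V) (T : Subgroup P), v - u ∈ cmV V (⊤ : Subgroup P) := by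
    intro v
    have hv : v ∈ AddSubgroup.closure
        {x | ∃ (g : P) (u : V), u ∈ fixV (V := V) (T : Subgroup P) ∧ g • u = x} :=
      D.span.symm ▸ AddSubgroup.mem_top v
    induction hv using AddSubgroup.closure_induction with
    | mem x hx =>
      obtain ⟨g, u, hu, rfl⟩ := hx
      exact ⟨u, hu, sub_mem_cmV (Subgroup.mem_top g) u⟩
    | zero => exact ⟨0, zero_mem _, by simp⟩
    | add x y _ _ hx hy =>
      obtain ⟨a, ha, ha'⟩ := hx; obtain ⟨b, hb, hb'⟩ := hy
      exact ⟨a + b, add_mem ha hb, by rw [add_sub_add_comm]; exact add_mem ha' hb'⟩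
    | neg x _ hx =>
      obtain ⟨a, ha, ha'⟩ := hx
      exact ⟨-a, neg_mem ha, by rw [← neg_sub' x a]; exact neg_mem ha'⟩
  have hW : cmV V (T : Subgroup P) = ⊥ := by
    refine eq_bot_of_le_commutator (p := p) T.2 D.exp ?_ ?_
    · intro r w hw
      have h1 : cmV V (T : Subgroup P) ≤
          (cmV V (T : Subgroup P)).comap (DistribMulAction.toAddMonoidHom V (r : P)) := by
        refine cmV_le_iff.2 fun a ha v => ?_
        show (r : P) • (a • v - v) ∈ cmV V (T : Subgroup P)
        have := sub_mem_cmV (V := V) (mul_mem (mul_mem r.2 ha) (inv_mem r.2)) ((r : P) • v)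
        simpa [smul_sub, ← mul_smul, mul_assoc] using this
      exact h1 hw
    · refine cmV_le_iff.2 fun a ha v => ?_
      obtain ⟨u, hu, hw⟩ := hgen v
      refine AddSubgroup.subset_closure ⟨⟨a, ha⟩, v - u, h hw, ?_⟩
      show a • (v - u) - (v - u) = a • v - v
      rw [smul_sub, hu a ha]; abel
  obtain ⟨z, -, hz⟩ := D.moved
  refine hz fun g _ => sub_eq_zero.1 ?_
  have h1 := h (sub_mem_cmV (Subgroup.mem_top g) z)
  rwa [hW, AddSubgroup.mem_bot] at h1

/-- The dual bound. -/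
theorem Hyp.card_le_cmV {T : Sylow p P} {M : Subgroup P} (D : Hyp V p T M) {A : Subgroup P}
    (hA : IsPGroup p A) (hc : IsMulCommutative A) : Nat.card A ≤ Nat.card (cmV V A) := by
  classical
  letI : DistribMulAction P (V →+ ZMod p) :=
    { smul := fun g f => f.comp (DistribMulAction.toAddMonoidHom V g⁻¹)
      one_smul := fun f => AddMonoidHom.ext fun v => congrArg f (by
        show (1 : P)⁻¹ • v = v
        rw [inv_one, one_smul])
      mul_smul := fun g k f => AddMonoidHom.ext fun v => congrArg f (by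
        show (g * k)⁻¹ • v = k⁻¹ • g⁻¹ • v
        rw [mul_inv_rev, mul_smul])
      smul_zero := fun g => rfl
      smul_add := fun g a b => rfl }
  have hsm : ∀ (g : P) (f : V →+ ZMod p) (v : V), (g • f) v = f (g⁻¹ • v) := fun _ _ _ => rfl
  haveI : Finite (V →+ ZMod p) :=
    Finite.of_injective (fun f => (f : V → ZMod p)) DFunLike.coe_injective
  have hfix : ∀ (X : Subgroup P) (f : V →+ ZMod p),
      f ∈ fixV (V := V →+ ZMod p) X ↔ ∀ x ∈ cmV V X, f x = 0 := by
    intro X f
    constructor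
    · intro h x hx
      have : cmV V X ≤ f.ker := cmV_le_iff.2 fun a ha v => by
        rw [AddMonoidHom.mem_ker, map_sub, sub_eq_zero]
        have := DFunLike.congr_fun (h a⁻¹ (inv_mem ha)) v
        rwa [hsm, inv_inv] at this
      exact this hx
    · intro h a ha
      refine AddMonoidHom.ext fun v => ?_
      rw [hsm, ← sub_eq_zero, ← map_sub]
      exact h _ (sub_mem_cmV (inv_mem ha) v)
  have D' : Hyp₀ (V →+ ZMod p) p T M := by
    refine ⟨fun g hg => D.faith g fun v => ?_, fun f => AddMonoidHom.ext fun v => ?_, D.ne, D.TM,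
      D.Mne, D.uniq, D.core, ?_⟩
    · by_contra hne
      obtain ⟨f, -, hf⟩ := exists_hom_ne_zero (p := p) D.exp (X := ⊥) (w := g • v - v)
        (fun h => hne (sub_eq_zero.1 (AddSubgroup.mem_bot.1 h)))
      refine hf ?_
      have h1 := DFunLike.congr_fun (hg f) (g • v)
      rw [hsm, inv_smul_smul] at h1
      rw [map_sub, h1, sub_self]
    · show p • f v = 0
      rw [← map_nsmul, D.exp, map_zero]
    · obtain ⟨x, hx, hx'⟩ := SetLike.not_le_iff_exists.1 D.cmV_top_not_le
      obtain ⟨f, hf, hfx⟩ := exists_hom_ne_zero (p := p) D.exp hx'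
      exact ⟨f, (hfix _ f).2 hf, fun h => hfx ((hfix _ f).1 h x hx)⟩
  have h1 := D'.wt_le hA hc
  rw [wt, card_hom D.exp, show Nat.card (fixV (V := V →+ ZMod p) A) =
    Nat.card {f : V →+ ZMod p // ∀ x ∈ cmV V A, f x = 0} from
      Nat.card_congr (Equiv.subtypeEquivRight (hfix A))] at h1
  have h2 := card_ann (p := p) D.exp (cmV V A)
  rw [← h2, mul_comm] at h1
  haveI : Nonempty {f : V →+ ZMod p // ∀ x ∈ cmV V A, f x = 0} := ⟨⟨0, fun _ _ => rfl⟩⟩
  exact Nat.le_of_mul_le_mul_left h1 Nat.card_pos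

variable (V) in
/-- An offender: an abelian `p`-subgroup `≠ 1` as heavy as the module. -/
structure Off (p : ℕ) (A : Subgroup P) : Prop where
  pg : IsPGroup p A
  ne : A ≠ ⊥
  comm : IsMulCommutative A
  eq : wt V A = Nat.card V

variable (V) in
/-- A minimal offender. -/
def Min (p : ℕ) (A : Subgroup P) : Prop := Off V p A ∧ ∀ B ≤ A, Off V p B → B = A

omit [Finite V] in
theorem Off.cj {A : Subgroup P} (h : Off V p A) (g : P) : Off V p (cj g A) :=
  haveI := h.comm
  ⟨isPGroup_cj h.pg g, cj_ne_bot h.ne,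
    Subgroup.map_isMulCommutative A (MulAut.conj g).toMonoidHom, by rw [wt_cj, h.eq]⟩

omit [Finite V] in
theorem Min.cj {A : Subgroup P} (h : Min V p A) (g : P) : Min V p (cj g A) :=
  ⟨h.1.cj g, fun B hB hoff => by
    rw [← cj_cj_inv g B, h.2 _ (cj_le_iff.2 (by rwa [inv_inv])) (hoff.cj g⁻¹)]⟩

omit [Fact p.Prime] [Finite V] [Finite P] in
theorem comm_of_le {A B : Subgroup P} (h : IsMulCommutative A) (hBA : B ≤ A) :
    IsMulCommutative B :=
  ⟨⟨fun a b => Subtype.ext (congrArg Subtype.val (h.1.1 ⟨a, hBA a.2⟩ ⟨b, hBA b.2⟩) :)⟩⟩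

omit [Finite V] in
theorem Off.exists_min {A : Subgroup P} (h : Off V p A) : ∃ B ≤ A, Min V p B := by
  obtain ⟨B, ⟨hBA, hB⟩, hmin⟩ := Set.exists_min_image {B : Subgroup P | B ≤ A ∧ Off V p B}
    (fun B => Nat.card B) (Set.toFinite _) ⟨A, le_rfl, h⟩
  exact ⟨B, hBA, hB, fun C hC hoff =>
    Subgroup.eq_of_le_of_card_ge hC (hmin C ⟨hC.trans hBA, hoff⟩)⟩

theorem Min.extremal {T : Sylow p P} {M : Subgroup P} (D : Hyp₀ V p T M) {A : Subgroup P}
    (h : Min V p A) : Extremal V A := by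
  refine extremal_of_max D.faith D.exp h.1.pg h.1.ne h.1.comm h.1.eq.ge fun B hB h0 hne => ?_
  have hc := comm_of_le h.1.comm hB
  exact lt_of_le_of_ne (h.1.eq.symm ▸ D.wt_le (h.1.pg.to_le hB) hc) fun he =>
    hne (h.2 B hB ⟨h.1.pg.to_le hB, h0, hc, he.trans h.1.eq⟩)

end Cfsg.Agent.FFMin
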